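import Cfsg.Agent.H9.U4.O1

/-! Maximal subgroups of `SU_5(q)`: orthogonal subfield subgroups. -/

set_option autoImplicit false
set_option linter.unusedSimpArgs false
set_option linter.unusedSectionVars false
set_option linter.unusedVariables false

namespace Cfsg.Agent.H6.U5

open Module Cfsg.Agent.H6 Cfsg.Agent.H5.U Cfsg.Agent.H5.U.HF

variable {F : Type*} {V : Type*} [Field F] [StarRing F] [AddCommGroup V] [Module F V]
  [NStar F] [Finite F] [FiniteDimensional F V] {h : H5.U.HF F V} {M : Subgroup (V ≃ₗ[F] V)}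
  {cj : V →+ V}

section

attribute [-simp] LinearEquiv.coe_inv

variable (c : h.Conj 1 cj) (h2 : (2 : F) ≠ 0) (h5 : 5 ≤ finrank F V) (hM : M ≤ h.SU)
  (hH : ∀ g ∈ h.SU, ConjStab cj g → g ∈ M) (hne : ¬ h.SU ≤ M) {g : V ≃ₗ[F] V} (hg : g ∈ M) {a : V}
  (ha : cj a = a) (a0 : a ≠ 0) (aa : h a a = 0)
include c h2 h5 hM hH hne hg ha a0 aa

theorem rat_conj5 {k : V ≃ₗ[F] V} (hk : k ∈ h.SU ∧ ConjStab cj k) (hu : k (g a) = g a) (x : V) :
    cj (g⁻¹ (k (g x))) = g⁻¹ (k (g (cj x))) :=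
  H9.U4.comm_of_rat c (k := g⁻¹ * k * g) (c.rat_of_fix h2 h5 hM hH hne ha a0 aa
    (mul_mem (mul_mem (inv_mem hg) (hH k hk.1 hk.2)) hg) (by simp [H5.U.mul_app, hu])) x

theorem beta_ne5 (hu : ∀ l : F, cj (g a) ≠ l • g a) : h (g a) (cj (g a)) ≠ 0 := fun hb => by
  have hg1 := (hM hg).1
  have uu : h (g a) (g a) = 0 := by rw [hg1, aa]
  have vv : h (cj (g a)) (cj (g a)) = 0 := by simp [c.form, uu]
  have hd := del_ne (F := F)
  have hd' : -del F + star (-del F) = 0 := by simp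
  obtain ⟨b, hb'⟩ := g.surjective (cj (g a))
  have k1 := rat_conj5 c h2 h5 hM hH hne hg ha a0 aa (k := h.T (g a) (del F) * h.T (cj (g a)) (-del F))
    ⟨mul_mem (T_mem_SU _ _) (T_mem_SU _ _), 1, fun x hx => by
      have e1 : h (g a) x = h x (cj (g a)) := by rw [← one_mul (h (g a) x), ← c.form, hx]
      have e2 : h (cj (g a)) x = h x (g a) := by rw [c.left, hx, one_mul]
      simp [H5.U.mul_app, T_apply uu del_tr, T_apply vv hd', symm0 hb, c.smul, hx, c.invol, e1, e2]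
      abel⟩ (by rw [H5.U.mul_app, T_apply_of_perp hb, T_apply_of_perp uu])
  simp only [H5.U.mul_app, T_apply uu del_tr, T_apply vv hd'] at k1
  simp only [← hb', hg1 _ _, map_add, map_smul, inv_apply_apply, add_left, smul_left] at k1
  have ba : h b a = 0 := by rw [← hg1, hb']; exact symm0 hb
  simp only [ba, mul_zero, add_zero, c.smul, ha] at k1
  have ind : ∀ l : F, b ≠ l • a := fun l hl => hu l (by rw [← hb', hl, map_smul])
  obtain ⟨z, z1, z2⟩ := exists_dual_pair' (h := h) ind 1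
  obtain ⟨z, z1, rz, z2⟩ := c.exists_rat_ne (c.pv_inv ha) (φ := h.lin b) (y := z) (symm0 z1)
    (by rw [lin_apply, symm1 z2]; exact one_ne_zero)
  replace z1 : h z a = 0 := z1
  replace z2 : h z b ≠ 0 := z2
  have k2 : cj ((-del F * h z b) • b) = (-del F * h z b) • b := by simpa [rz, z1, c.smul] using k1 z
  obtain ⟨y, y1, y2⟩ := exists_dual_pair' (h := h) (x := (-del F * h z b) • b) (w := a) (fun l hl => by
    have l0 : l ≠ 0 := by rintro rfl; simp [a0] at hl
    exact ind (l * (-del F * h z b))⁻¹ (by rw [hl, smul_smul, smul_smul]; simp [l0, hd, z2, mul_assoc])) 1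
  obtain ⟨y, y1, ry, y2⟩ := c.exists_rat_ne (c.pv_inv k2) (φ := h.lin a) (y := y) (symm0 y1)
    (by rw [lin_apply, symm1 y2]; exact one_ne_zero)
  replace y1 : h y b = 0 := by simpa [hd, symm_ne z2] using y1
  have k3 := k1 y
  simp [ry, y1, c.star_rat ry ha] at k3
  have k4 := smul_left_injective F a0 ((neg_smul _ a).trans k3)
  exact y2 (mul_left_cancel₀ (mul_ne_zero h2 hd) (by rw [lin_apply]; linear_combination -k4))

end

theorem o_core5 (c : h.Conj 1 cj) (h2 : (2 : F) ≠ 0) (h5 : 5 ≤ finrank F V) (hM : M ≤ h.SU)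
    (hH : ∀ g ∈ h.SU, ConjStab cj g → g ∈ M) (hg : ∃ g ∈ M, ¬ ConjStab cj g) : h.SU ≤ M := by
  by_contra hne
  obtain ⟨g, hgM, hg⟩ := hg
  have hg1 := (hM hgM).1
  obtain ⟨a, ha, haa, hga⟩ := c.exists_irrat h2 (by omega) hg1 hg
  have hβ := beta_ne5 c h2 h5 hM hH hne hgM ha (by rintro rfl; exact hga 0 (by simp)) haa hga
  set u := g a with hu
  obtain ⟨e, he1, he, he0, hee⟩ := c.exists_rat_iso (c.inv_pv₂ (U := ⊤) (fun _ _ => trivial) u) (by
    have := finrank_inf_pv₂ (h := h) ⊤ u (cj u)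
    simp only [finrank_top] at *; omega)
  have heu : h e u = 0 := he1.1.2
  obtain ⟨w, hw1, hw, hwS⟩ := c.exists_rat_not_mem (c.inv_pv₂ (c.pv_inv ha) (g⁻¹ e))
    (S := (Submodule.span F {u, cj u}).map ((g⁻¹ : V ≃ₗ[F] V) : V →ₗ[F] V)) (fun h' => by
      have k1 := finrank_inf_pv₂ (h := h) (h.pv a) (g⁻¹ e) (cj (g⁻¹ e))
      have k2 := finrank_pv (h := h) a
      have k3 := finrank_span_pair_le (F := F) u (cj u)
      have k4 := Submodule.eq_of_le_of_finrank_le h' (by rw [LinearEquiv.finrank_map_eq]; omega)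
      have k5 : g⁻¹ (cj u) ∈ h.pv a ⊓ h.pv (g⁻¹ e) ⊓ h.pv (cj (g⁻¹ e)) := by
        rw [k4]; exact ⟨cj u, Submodule.subset_span (by simp), rfl⟩
      have k6 : h (g⁻¹ (cj u)) a = 0 := k5.1.1
      rw [← hg1, apply_inv_apply] at k6
      exact hβ (symm0 k6))
  have hwa : h w a = 0 := hw1.1.1
  have hwe : h (g w) e = 0 := by rw [GU_left hg1]; exact hw1.1.2
  have hwS' : g w ∉ Submodule.span F {u, cj u} := fun h' => hwS ⟨g w, h', by simp⟩
  obtain ⟨o, ho⟩ := c.E_stab h2 ha hw haa hwa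
  have h3 := M.mul_mem (M.mul_mem hgM (hH _ (E_mem_SU _ _ _) ho)) (M.inv_mem hgM)
  rw [conj_E hg1 o] at h3
  have o' := o.map hg1
  have h4 := c.rat_of_fix h2 (by omega) hM hH hne he he0 hee h3 (E_apply_of_perp heu (symm0 hwe))
  obtain ⟨x, hx1, hx2⟩ := exists_dual_pair' (h := h) (x := u) (w := g w) (fun s hs =>
    hwS' (Submodule.mem_span_pair.2 ⟨s, 0, by simp [hs]⟩)) (-1)
  let A : Submodule F V :=
    { carrier := {x | cj (h.E u (g w) (h w w / 2) x - x) ∈ Submodule.span F {u, g w}}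
      add_mem' := fun {x y} hx hy => by
        simp only [Set.mem_setOf_eq, map_add, map_sub] at *
        convert Submodule.add_mem _ hx hy using 1; abel
      zero_mem' := by simp
      smul_mem' := fun s x hx => by
        simp only [Set.mem_setOf_eq] at *
        rw [map_smul, ← smul_sub, c.smul]; exact Submodule.smul_mem _ _ hx }
  have hA : ∀ x, x ∈ A ↔ cj (h.E u (g w) (h w w / 2) x - x) ∈ Submodule.span F {u, g w} :=
    fun _ => Iff.rfl
  have h7 : x ∈ A := by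
    by_contra h7
    obtain ⟨z, -, hz, hz'⟩ := c.exists_rat_not_mem (U := ⊤) (S := A) (fun _ _ => trivial)
      fun h' => h7 (h' trivial)
    refine hz' ((hA _).2 ?_)
    rw [map_sub, h4 z hz, hz, E_apply o']
    exact Submodule.mem_span_pair.2 ⟨-(h z (g w) + h w w / 2 * h z u), h z u, by module⟩
  obtain ⟨s, t, hst⟩ := Submodule.mem_span_pair.1 ((hA _).1 h7)
  have h8 : h x (g w) = -1 := by rw [← h.conj, hx2]; simp
  rw [E_apply_of_perp_left o' (symm0 hx1), h8] at hst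
  simp only [neg_smul, one_smul, sub_neg_eq_add, add_sub_cancel_left, ← hu] at hst
  have ht : t ≠ 0 := by rintro rfl; exact hga s (by simpa using hst.symm)
  refine hwS' (Submodule.mem_span_pair.2 ⟨-(t⁻¹ * s), t⁻¹, ?_⟩)
  rw [← hst]; match_scalars <;> field_simp <;> ring

theorem o_max {F : Type*} [Field F] [Fintype F] (n q : ℕ) (hn : 5 ≤ n)
    (hF : Fintype.card F = q ^ 2) (hodd : Odd q) (F₀ : Subfield F) (P : GL (Fin n) F)
    (hcard : Fintype.card F = Nat.card F₀ ^ 2)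
    (hP : Geo.IsFormRationalStructure (hermForm n F q) F₀ 1 P) :
    Geo.IsMaximalIn (GU n F q ⊓ Geo.specialLinear (Fin n) F)
      (Geo.subfieldSubgroup F₀ P ⊓ (GU n F q ⊓ Geo.specialLinear (Fin n) F)) :=
  o_subfield_maximal_of n q hF hn hodd F₀ hcard P hP
    fun h cj c h2 M hM hH hg => o_core5 c h2 (by simpa using hn) hM hH hg

end Cfsg.Agent.H6.U5
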