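import Mathlib

/-! The irreducible module of a twisted group algebra of a finite abelian group. -/

set_option autoImplicit false
set_option linter.unusedSectionVars false

namespace Cfsg.Agent.H6.U5

open Module LinearMap Finset
open scoped Classical

variable {V : Type*} [AddCommGroup V] [Fintype V] {c : V → V → ℂ}

/-- nondegenerate bicharacters -/
structure Coc (c : V → V → ℂ) : Prop where
  l : ∀ x y z, c (x + y) z = c x z * c y z
  r : ∀ x y z, c x (y + z) = c x y * c x z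
  ne : ∀ x y, c x y ≠ 0
  nd : ∀ x, x ≠ 0 → ∃ y, c x y ≠ c y x

theorem Coc.zl (h : Coc c) (x : V) : c 0 x = 1 :=
  mul_left_cancel₀ (h.ne 0 x) (by rw [← h.l, add_zero, mul_one])

theorem Coc.zr (h : Coc c) (x : V) : c x 0 = 1 :=
  mul_left_cancel₀ (h.ne x 0) (by rw [← h.r, add_zero, mul_one])

theorem Coc.nr (h : Coc c) (x y : V) : c x (-y) = (c x y)⁻¹ :=
  eq_inv_of_mul_eq_one_left (by rw [← h.r, neg_add_cancel, h.zr])

theorem Coc.nl (h : Coc c) (x y : V) : c (-x) y = (c x y)⁻¹ :=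
  eq_inv_of_mul_eq_one_left (by rw [← h.l, neg_add_cancel, h.zl])

theorem Coc.sum (h : Coc c) {x : V} (hx : x ≠ 0) : ∑ y, c y x * (c x y)⁻¹ = 0 := by
  obtain ⟨z, hz⟩ := h.nd x hx
  have := Equiv.sum_comp (Equiv.addRight z) fun y => c y x * (c x y)⁻¹
  simp only [Equiv.coe_addRight, h.l, h.r, mul_inv, mul_mul_mul_comm _ (c z x), ← sum_mul] at this
  by_contra e
  exact hz (eq_of_div_eq_one ((mul_eq_left₀ e).1 this)).symm

section alg

variable {A : Type*} [Ring A] [Algebra ℂ A] {w : V → A}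

theorem Coc.conj (h : Coc c) (hw : ∀ x y, w x * w y = c x y • w (x + y)) (x y : V) :
    w y * w x * (c y y • w (-y)) = (c y x * (c x y)⁻¹) • w x := by
  rw [hw, smul_mul_smul_comm, hw, smul_smul, h.nr, h.l, add_neg_cancel_comm]
  have := h.ne y y
  congr 1; field_simp

theorem Coc.avg (h : Coc c) (hw : ∀ x y, w x * w y = c x y • w (x + y)) (f : V → ℂ) :
    ∑ y, w y * (∑ x, f x • w x) * (c y y • w (-y)) = (Fintype.card V * f 0) • w 0 := by
  simp only [mul_sum, sum_mul, mul_smul_comm (f _), smul_mul_assoc (f _), h.conj hw]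
  rw [sum_comm, sum_eq_single 0 (fun x _ hx => by rw [← smul_sum, ← sum_smul, h.sum hx]; simp) (by simp)]
  simp [h.zl, h.zr, ← Nat.cast_smul_eq_nsmul ℂ, smul_smul]

end alg

/-- the regular module -/
def Lu (c : V → V → ℂ) (x : V) : End ℂ (V → ℂ) where
  toFun f y := c x (y - x) * f (y - x)
  map_add' f g := by ext; simp [mul_add]
  map_smul' a f := by ext; simp [mul_left_comm]

theorem Coc.exists_w (h : Coc c) : ∃ (n : ℕ) (b : Basis V ℂ (End ℂ (Fin n → ℂ))),
    (∀ x y, b x * b y = c x y • b (x + y)) ∧ b 0 = 1 ∧ n ^ 2 = Fintype.card V := by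
  have m : ∀ x y, Lu c x * Lu c y = c x y • Lu c (x + y) := fun x y => by
    refine LinearMap.ext fun f => funext fun z => ?_
    simp only [Lu, End.mul_apply, coe_mk, AddHom.coe_mk, LinearMap.smul_apply, Pi.smul_apply, smul_eq_mul,
      h.l, sub_add_eq_sub_sub]
    rw [show c x (z - x) = c x y * c x (z - x - y) by rw [← h.r]; simp]; ring
  have o : Lu c 0 = 1 := by ext1 f; ext z; simp [Lu, h.zl]
  have li : LinearIndependent ℂ (Lu c) := Fintype.linearIndependent_iff.2 fun f e x => by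
    have := congrFun (LinearMap.congr_fun e (Pi.single 0 1)) x
    simpa [Lu, LinearMap.sum_apply, Pi.single_apply, sub_eq_zero, h.zr] using this
  let S : Subalgebra ℂ (End ℂ (V → ℂ)) := (Submodule.span ℂ (Set.range (Lu c))).toSubalgebra
    (Submodule.subset_span ⟨0, o⟩) fun x y hx hy => by
      obtain ⟨f, rfl⟩ := (Submodule.mem_span_range_iff_exists_fun ℂ).1 hx
      obtain ⟨g, rfl⟩ := (Submodule.mem_span_range_iff_exists_fun ℂ).1 hy
      simp only [sum_mul, mul_sum, smul_mul_smul_comm, m]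
      exact sum_mem fun _ _ => sum_mem fun _ _ => Submodule.smul_mem _ _
        (Submodule.smul_mem _ _ (Submodule.subset_span ⟨_, rfl⟩))
  let b : Basis V ℂ S := Basis.span li
  have bv : ∀ x, (b x : End ℂ (V → ℂ)) = Lu c x := fun x => congrArg Subtype.val (Basis.span_apply li x)
  have bm : ∀ x y, b x * b y = c x y • b (x + y) := fun x y => Subtype.ext (by
    simpa [bv] using m x y)
  have b0 : b 0 = 1 := Subtype.ext ((bv 0).trans o)
  have : Nontrivial S := ⟨_, _, b.ne_zero 0⟩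
  have : IsSimpleRing S := IsSimpleRing.of_eq_bot_or_eq_top fun I => by
    refine or_iff_not_imp_left.2 fun e => ?_
    obtain ⟨a, ha, a0⟩ : ∃ a ∈ I, a ≠ 0 := by
      by_contra! k; exact e (eq_bot_iff.2 fun a ha => (TwoSidedIdeal.mem_bot _).2 (k a ha))
    obtain ⟨x, hx⟩ : ∃ x, b.repr a x ≠ 0 := by
      by_contra! k; exact a0 (b.repr.map_eq_zero_iff.1 (Finsupp.ext k))
    have k := h.avg (A := S) bm fun y => b.repr a (y + x) * c (y + x) (-x)
    have k' : ∑ y, (b.repr a (y + x) * c (y + x) (-x)) • b y = a * b (-x) := by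
      conv_rhs => rw [← b.sum_repr a, sum_mul, ← Equiv.sum_comp (Equiv.addRight x)]
      simp [bm, smul_smul]
    rw [k', b0] at k
    have := I.mul_mem_left ((Fintype.card V * (b.repr a (0 + x) * c (0 + x) (-x)))⁻¹ • 1) _
      (k ▸ sum_mem fun y _ => I.mul_mem_right _ _ (I.mul_mem_left _ _ (I.mul_mem_right _ _ ha)) :
        _ • (1 : S) ∈ I)
    rw [smul_mul_smul_comm, inv_mul_cancel₀ (by simp [hx, h.ne]), one_smul, one_mul] at this
    exact (I.one_mem_iff).1 this
  have : FiniteDimensional ℂ S := Module.Finite.of_basis b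
  obtain ⟨n, -, ⟨e⟩⟩ := IsSimpleRing.exists_algEquiv_matrix_of_isAlgClosed ℂ S
  let e' := e.trans Matrix.toLinAlgEquiv'
  refine ⟨n, b.map e'.toLinearEquiv, fun x y => by simp [← map_mul, bm], by simp [b0], ?_⟩
  rw [← finrank_eq_card_basis b, e.toLinearEquiv.finrank_eq]; simp [finrank_matrix, pow_two]

/-- a Heisenberg basis of the endomorphism ring -/
structure Heis (c : V → V → ℂ) {n : ℕ} (b : Basis V ℂ (End ℂ (Fin n → ℂ))) : Prop extends Coc c where
  mul : ∀ x y, b x * b y = c x y • b (x + y)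
  one : b 0 = 1
  card : n ^ 2 = Fintype.card V

variable {n : ℕ} {b : Basis V ℂ (End ℂ (Fin n → ℂ))} (h : Heis c b)
include h

theorem Heis.n0 : (n : ℂ) ≠ 0 := fun e => by
  have := h.card; rw [Nat.cast_eq_zero.1 e] at this; exact Fintype.card_ne_zero (α := V) (by simpa using this.symm)

theorem Heis.inv (y : V) : c y y • b (-y) * b y = 1 := by
  rw [smul_mul_assoc, h.mul, smul_smul, h.nl, mul_inv_cancel₀ (h.ne _ _), one_smul, neg_add_cancel, h.one]

theorem Heis.tr (x : V) : trace ℂ _ (b x) = if x = 0 then (n : ℂ) else 0 := by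
  split_ifs with e
  · simp [e, h.one]
  obtain ⟨y, hy⟩ := h.nd x e
  have := congrArg (trace ℂ _) (h.conj h.mul x y)
  rw [trace_mul_cycle, h.inv, one_mul, map_smul, smul_eq_mul] at this
  by_contra k
  exact hy (eq_of_div_eq_one ((mul_eq_right₀ k).1 this.symm)).symm

theorem Heis.tr_sum (f : V → ℂ) : trace ℂ _ (∑ x, f x • b x) = n * f 0 := by
  simp [h.tr, mul_comm]

theorem Heis.tr_mul (f g : V → ℂ) : trace ℂ _ ((∑ x, f x • b x) * ∑ x, g x • b x) =
    n * ∑ x, f x * g (-x) * (c x x)⁻¹ := by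
  rw [sum_mul]
  simp only [mul_sum, smul_mul_smul_comm, h.mul, map_sum, map_smul, h.tr, add_eq_zero_iff_eq_neg',
    smul_eq_mul, mul_ite, mul_zero, sum_ite_eq', mem_univ, if_true, h.nr]
  exact sum_congr rfl fun _ _ => by ring

theorem Heis.avg' (A : End ℂ (Fin n → ℂ)) :
    ∑ y, b y * A * (c y y • b (-y)) = (n * trace ℂ _ A) • (1 : End ℂ (Fin n → ℂ)) := by
  rw [← b.sum_repr A, h.avg h.mul, h.tr_sum, h.one, ← h.card, Nat.cast_pow, pow_two, mul_assoc]

theorem Heis.scalar {A : End ℂ (Fin n → ℂ)} (e : ∀ x, A * b x = b x * A) : ∃ k : ℂ, A = k • 1 := by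
  have := h.avg' A
  simp only [← e, mul_assoc, left_inv_eq_right_inv (h.inv _) (mul_eq_one_comm.1 (h.inv _)) ▸
    mul_eq_one_comm.1 (h.inv _), mul_one, sum_const, card_univ, ← Nat.cast_smul_eq_nsmul ℂ] at this
  exact ⟨_, by rw [mul_smul, ← this, inv_smul_smul₀ (a := (Fintype.card V : ℂ)) (by simp)]⟩

theorem Heis.exists_int (g : V ≃+ V) (hg : ∀ x y, c (g x) (g y) = c x y) :
    ∃ A : (End ℂ (Fin n → ℂ))ˣ, ∀ x, A * b x = b (g x) * A := by
  obtain ⟨T, hT⟩ := (AlgEquiv.ofLinearEquiv (b.equiv b g.toEquiv) (by rw [← h.one]; simp) (by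
    have : (LinearMap.mul ℂ _).compr₂ (b.equiv b g.toEquiv).toLinearMap = (LinearMap.mul ℂ _).compl₁₂
        (b.equiv b g.toEquiv).toLinearMap (b.equiv b g.toEquiv).toLinearMap :=
      b.ext fun x => b.ext fun y => by simp [h.mul, hg]
    exact fun x y => LinearMap.congr_fun₂ this x y)).eq_linearEquivConjAlgEquiv
  refine ⟨GeneralLinearGroup.ofLinearEquiv T, fun x => ?_⟩
  have := AlgEquiv.congr_fun hT (b x)
  simp only [AlgEquiv.ofLinearEquiv_apply, Basis.equiv_apply, AddEquiv.toEquiv_eq_coe, EquivLike.coe_coe,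
    LinearEquiv.conjAlgEquiv_apply] at this
  rw [this]; ext1 v; ext1; simp

theorem Heis.tr_int {g : V → V} {A B : End ℂ (Fin n → ℂ)} (hA : ∀ x, A * b x = b (g x) * A)
    (g0 : ∀ x, g (-x) = -g x) (e : A * B = 1) :
    trace ℂ _ A * trace ℂ _ B = Nat.card {x // g x = x} := by
  have := congrArg (fun X => trace ℂ _ (X * B)) (h.avg' A)
  have k : ∀ y, b y * A * (c y y • b (-y)) * B = c y y • (b y * b (-g y)) := fun y => by
    rw [mul_smul_comm, mul_assoc _ A, hA, smul_mul_assoc, g0, mul_assoc, mul_assoc, e, mul_one]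
  simp only [sum_mul, k] at this
  simp only [smul_mul_assoc, one_mul, map_smul, map_sum, smul_eq_mul, h.mul, h.tr,
    add_neg_eq_zero, mul_assoc] at this
  refine mul_left_cancel₀ h.n0 (this.symm.trans ?_)
  rw [Nat.card_eq_fintype_card, Fintype.card_subtype, card_filter, Nat.cast_sum, mul_sum]
  refine sum_congr rfl fun y _ => ?_
  by_cases k : g y = y
  · simp [k, h.nr, h.ne]
  · simp [k, Ne.symm k]

end Cfsg.Agent.H6.U5
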