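import Cfsg.Agent.H6.U5.W1

/-! Compressions to the image of an idempotent, and isotypic projections. -/

set_option autoImplicit false
set_option linter.unusedSectionVars false

namespace Cfsg.Agent.H6.U5

open Module LinearMap Finset
open scoped Classical

variable {W : Type*} [AddCommGroup W] [Module ℂ W] [FiniteDimensional ℂ W] {p A B : End ℂ W}

/-- compression -/
def res (p : End ℂ W) : End ℂ W →ₗ[ℂ] End ℂ (LinearMap.range p) where
  toFun A := p.rangeRestrict ∘ₗ A ∘ₗ (LinearMap.range p).subtype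
  map_add' A B := by ext; simp
  map_smul' A B := by ext; simp

theorem res_apply (x : LinearMap.range p) : (res p A x : W) = p (A x) := rfl

theorem tr_res : trace ℂ _ (res p A) = trace ℂ _ (A * p) :=
  trace_comp_comm' (A ∘ₗ (LinearMap.range p).subtype) p.rangeRestrict

variable (hp : p * p = p)
include hp

theorem res_one : res p 1 = 1 := by
  ext ⟨_, x, rfl⟩; exact LinearMap.congr_fun hp x

theorem res_mul (h : B * p = p * B) : res p (A * B) = res p A * res p B := by
  ext ⟨_, x, rfl⟩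
  exact congrArg (fun y => p (A y)) (LinearMap.congr_fun
    (show B * p = p * (B * p) by rw [h, ← mul_assoc, hp]) x)

theorem res_mul_p : res p (A * p) = res p A := by
  ext ⟨_, x, rfl⟩; exact congrArg (fun y => p (A y)) (LinearMap.congr_fun hp x)

theorem rk_res : (finrank ℂ (LinearMap.range p) : ℂ) = trace ℂ _ p := by
  rw [← trace_one, ← res_one hp, tr_res, one_mul]

/-- the subrepresentation cut out by an idempotent -/
def cut {G : Type*} [Group G] (ρ : Representation ℂ G W) (h : ∀ g, ρ g * p = p * ρ g) :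
    Representation ℂ G (LinearMap.range p) where
  toFun g := res p (ρ g)
  map_one' := by rw [map_one, res_one hp]
  map_mul' g g' := by rw [map_mul, res_mul hp (h _)]

theorem cut_char {G : Type*} [Group G] (ρ : Representation ℂ G W) (h : ∀ g, ρ g * p = p * ρ g) (g : G) :
    (cut hp ρ h).character g = trace ℂ _ (ρ g * p) := tr_res

theorem schur {G : Type*} [Group G] [Fintype G] (ρ : Representation ℂ G W) (h : ∀ g, ρ g * p = p * ρ g)
    (e : ∑ g, trace ℂ _ (ρ g * p) * trace ℂ _ (ρ g⁻¹ * p) = Nat.card G) (hA : A * p = p * A)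
    (hA' : ∀ g, ρ g * A = A * ρ g) : ∃ k : ℂ, A * p = k • p := by
  have G0 : (Nat.card G : ℂ) ≠ 0 := by exact_mod_cast Nat.card_pos.ne'
  have := invertibleOfNonzero G0
  have a := Representation.card_inv_mul_sum_char_mul_char_eq_finrank (cut hp ρ h) (cut hp ρ h)
  simp only [cut_char, e, inv_mul_cancel₀ G0] at a
  by_cases p0 : p = 0
  · exact ⟨0, by simp [p0]⟩
  obtain ⟨x, hx⟩ : ∃ x, p x ≠ 0 := by by_contra! k; exact p0 (LinearMap.ext k)
  obtain ⟨k, hk⟩ := (finrank_eq_one_iff_of_nonzero' (Representation.IntertwiningMap.id (cut hp ρ h))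
    fun e => hx (congrArg Subtype.val (DFunLike.congr_fun e ⟨_, x, rfl⟩) :)).1 (by exact_mod_cast a.symm)
    ⟨res p A, fun g => by
      change res p A * res p (ρ g) = res p (ρ g) * res p A
      rw [← res_mul hp hA, ← res_mul hp (h g), hA']⟩
  refine ⟨k, LinearMap.ext fun y => ?_⟩
  have := congrArg Subtype.val (DFunLike.congr_fun hk ⟨_, y, rfl⟩)
  exact (LinearMap.congr_fun (show A * p = p * (A * p) by rw [hA, ← mul_assoc, hp]) y).trans this.symm

omit hp

variable {Z : Type*} [CommGroup Z] [Fintype Z] [Fintype (Z →* ℂˣ)] (R : Z →* End ℂ W) {η : Z →* ℂˣ}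

theorem sum_dual (z : Z) : ∑ η : Z →* ℂˣ, (η z : ℂ) = if z = 1 then (Fintype.card Z : ℂ) else 0 := by
  have := NeZero.mk (Monoid.exponent_ne_zero_of_finite (G := Z))
  split_ifs with e
  · simp [e, ← Nat.card_eq_fintype_card, CommGroup.card_monoidHom_of_hasEnoughRootsOfUnity]
  obtain ⟨φ, hφ⟩ := CommGroup.exists_apply_ne_one_of_hasEnoughRootsOfUnity Z ℂ e
  exact sum_hom_units_eq_zero ((Units.coeHom ℂ).comp (MonoidHom.eval z)) fun k =>
    hφ (Units.ext (DFunLike.congr_fun k φ))

theorem sum_char : ∑ z, (η z⁻¹ : ℂ) = if η = 1 then (Fintype.card Z : ℂ) else 0 := by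
  refine (Equiv.sum_comp (Equiv.inv Z) fun z => (η z : ℂ)).trans ?_
  split_ifs with e
  · simp [e]
  exact sum_hom_units_eq_zero ((Units.coeHom ℂ).comp η) fun k =>
    e (MonoidHom.ext fun z => Units.ext (DFunLike.congr_fun k z))

/-- isotypic projection -/
noncomputable def pr (η : Z →* ℂˣ) : End ℂ W := (Fintype.card Z : ℂ)⁻¹ • ∑ z, (η z⁻¹ : ℂ) • R z

theorem mul_pr (z : Z) : R z * pr R η = (η z : ℂ) • pr R η := by
  rw [pr, mul_smul_comm, smul_comm (η z : ℂ), mul_sum, smul_sum (r := (η z : ℂ)),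
    ← Equiv.sum_comp (Equiv.mulLeft z⁻¹)]
  simp only [Equiv.coe_mulLeft, mul_smul_comm, ← map_mul R, mul_inv_cancel_left, mul_inv, inv_inv,
    map_mul η, Units.val_mul, mul_smul]

theorem pr_idem : pr R η * pr R η = pr R η := by
  nth_rw 1 [pr]
  simp [sum_mul, mul_pr, smul_smul, ← Nat.cast_smul_eq_nsmul ℂ]

theorem pr_comm (h : ∀ z, A * R z = R z * A) : A * pr R η = pr R η * A := by
  simp [pr, mul_sum, sum_mul, h]

theorem tr_pr : trace ℂ _ (A * pr R η) =
    (Fintype.card Z : ℂ)⁻¹ * ∑ z, (η z⁻¹ : ℂ) * trace ℂ _ (A * R z) := by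
  simp [pr, mul_sum]

theorem sum_pr : ∑ η, pr R η = 1 := by
  simp only [pr, ← smul_sum]
  rw [sum_comm]
  simp [← sum_smul, -map_inv, sum_dual, smul_smul]

theorem pr_parseval : ∑ η, trace ℂ _ (A * pr R η) * trace ℂ _ (B * pr R η) =
    (Fintype.card Z : ℂ)⁻¹ * ∑ z, trace ℂ _ (A * R z) * trace ℂ _ (B * R z⁻¹) := by
  have k : ∀ A : End ℂ W, ∀ z, trace ℂ _ (A * R z) = ∑ η : Z →* ℂˣ, η z * trace ℂ _ (A * pr R η) :=
    fun A z => by
      conv_lhs => rw [← mul_one (R z), ← sum_pr R]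
      simp [mul_sum, mul_pr]
  simp only [k B, mul_sum]
  rw [sum_comm]
  refine sum_congr rfl fun η _ => ?_
  rw [tr_pr R (A := A), mul_sum, sum_mul]
  exact sum_congr rfl fun _ _ => by ring

end Cfsg.Agent.H6.U5
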