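import Cfsg.Agent.H6.U5.W2
import Cfsg.Agent.H6.S5.D2
import Cfsg.Agent.H5.U.Ext6

/-! The Weil representation on a cyclic torus. -/

set_option autoImplicit false
set_option linter.unusedSectionVars false

namespace Cfsg.Agent.H6.U5

open Module LinearMap Finset H5.U H6.S5
open scoped Classical

/-- elements of norm one -/
def U1 (K : Type*) [Field K] [StarRing K] : Subgroup Kˣ where
  carrier := {c | (c : K) * star (c : K) = 1}
  mul_mem' {a b} ha hb := by simpa using HF.norm_one_mul ha hb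
  one_mem' := by simp
  inv_mem' {a} ha := by simpa using HF.norm_one_inv ha

section
variable {K : Type*} [Field K] [StarRing K] [NStar K] [Fintype K]

theorem sum_norm (φ : K → ℂ) : ∑ y : K, φ (star y * y) =
    φ 0 + Nat.card (U1 K) * (∑ x : F0 K, φ x - φ 0) := by
  rw [← sum_fiberwise univ fun y : K => (⟨star y * y, by simp [mem_F0, mul_comm]⟩ : F0 K),
    ← add_sum_erase _ _ (mem_univ 0), ← add_sum_erase _ _ (mem_univ (0 : F0 K))]
  simp only [ZeroMemClass.coe_zero, add_sub_cancel_left, mul_sum]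
  congr 1
  · rw [sum_eq_single 0 (by simp [Subtype.ext_iff]) (by simp [Subtype.ext_iff])]; simp
  refine sum_congr rfl fun x hx => ?_
  obtain ⟨a, a0, ha⟩ := exists_norm' x.2 fun e => ne_of_mem_erase hx (Subtype.ext e)
  rw [sum_congr rfl (g := fun _ => φ x) fun y hy => congrArg φ (congrArg Subtype.val (mem_filter.1 hy).2),
    sum_const, nsmul_eq_mul, ← Fintype.card_subtype, ← Nat.card_eq_fintype_card]
  congr 2
  symm
  refine Nat.card_eq_of_bijective (fun s : U1 K => ⟨s.1 * a, Subtype.ext (by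
    have e : (s.1 : K) * star (s.1 : K) = 1 := s.2
    simp only [star_mul', ← ha]; linear_combination (a * star a) * e)⟩)
    ⟨fun s t e => Subtype.ext (Units.ext (mul_right_cancel₀ a0 (Subtype.mk.inj e))), fun y => ?_⟩
  · have e : star y.1 * y.1 = a * star a := (congrArg Subtype.val y.2).trans ha.symm
    have := star_ne_zero' a0
    refine ⟨⟨Units.mk0 (y / a) (div_ne_zero (fun k => ?_) a0), ?_⟩, Subtype.ext (by simp [a0])⟩
    · simp [k, a0] at e
    · change y.1 / a * star (y.1 / a) = 1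
      rw [star_div₀]; field_simp; linear_combination e

theorem card_U1 : Nat.card (U1 K) = Nat.card (F0 K) + 1 := by
  have := sum_norm (K := K) fun _ => 1
  simp only [sum_const, card_univ, nsmul_eq_mul, mul_one, ← Nat.card_eq_fintype_card,
    card_eq_sq K] at this
  have n1 : (Nat.card (F0 K) : ℂ) - 1 ≠ 0 := sub_ne_zero.2 (by exact_mod_cast Finite.one_lt_card.ne')
  exact_mod_cast mul_right_cancel₀ n1 (show (Nat.card (U1 K) : ℂ) * _ = (Nat.card (F0 K) + 1) * _ by
    push_cast at this; linear_combination -this)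

end

variable {F K : Type*} [Field F] [Fintype F] [StarRing F] [NStar F] [Field K] [Algebra F K] [Fintype K]
  [StarRing K] [StarModule F K] [NStar K] {h : HF F K} {Ψ : AddChar F ℂ} {n : ℕ}
  {b : Basis K ℂ (End ℂ (Fin n → ℂ))}

theorem coc {V : Type*} [AddCommGroup V] [Module F V] (h : HF F V) (hΨ : Ψ (del F) ≠ 1) :
    Coc fun x y => Ψ (h x y) := by
  refine ⟨by simp [Ψ.map_add_eq_mul], by simp [Ψ.map_add_eq_mul], fun x y => Ψ.val_isUnit _ |>.ne_zero,
    fun x hx => ?_⟩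
  obtain ⟨y, hy⟩ := h.exists_ne hx
  obtain ⟨a, ha⟩ := exists_tr_one F
  refine ⟨(a * del F / h y x) • y, fun e => hΨ ?_⟩
  rw [← h.conj, h.smul_left, div_mul_cancel₀ _ hy] at e
  rw [show del F = a * del F - star (a * del F) by simp; linear_combination -del F * ha,
    Ψ.map_sub_eq_div, e, div_self (Ψ.val_isUnit _).ne_zero]

theorem exists_Ψ : ∃ Ψ : AddChar F ℂ, Ψ (del F) ≠ 1 := (AddChar.exists_apply_ne_zero).2 del_ne

/-- the data of the Weil module -/
structure WD (h : HF F K) (Ψ : AddChar F ℂ) (b : Basis K ℂ (End ℂ (Fin n → ℂ))) : Prop where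
  adj : ∀ c u v : K, h (c * u) v = h u (star c * v)
  ne : Ψ (del F) ≠ 1
  hs : Heis (fun x y => Ψ (h x y)) b

variable (h Ψ b) in
/-- Gaussian operators -/
noncomputable def Ga (γ : K) : End ℂ (Fin n → ℂ) := ∑ y, Ψ (h y (γ * y)) • b y

variable (h Ψ b) in
/-- Weil operators -/
noncomputable def Ro (s : K) : End ℂ (Fin n → ℂ) :=
  if s = 1 then 1 else (-(n : ℂ)⁻¹) • Ga h Ψ b (1 - s)⁻¹

theorem Ga_comm {g : K ≃ₗ[F] K} (hg : g ∈ h.GU) {A : End ℂ (Fin n → ℂ)} (hA : ∀ x, A * b x = b (g x) * A)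
    {γ γ' : K} (e : ∀ y, g (γ * y) = γ' * g y) : A * Ga h Ψ b γ = Ga h Ψ b γ' * A := by
  simp only [Ga, mul_sum, sum_mul, mul_smul_comm, smul_mul_assoc, hA]
  exact Fintype.sum_equiv g.toEquiv _ _ fun y => by simp [← e, HF.GU_app hg]

theorem Ro_comm {g : K ≃ₗ[F] K} (hg : g ∈ h.GU) {A : End ℂ (Fin n → ℂ)} (hA : ∀ x, A * b x = b (g x) * A)
    {σ : K →ₐ[F] K} (e : Sm g σ) (s : K) : A * Ro h Ψ b s = Ro h Ψ b (σ s) * A := by
  simp only [Ro, map_eq_one_iff σ σ.injective]
  split_ifs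
  · simp
  · rw [mul_smul_comm, Ga_comm hg hA (e _), smul_mul_assoc]; simp

theorem Ro_comm' {g : K ≃ₗ[F] K} (hg : g ∈ h.GU) {A : End ℂ (Fin n → ℂ)} (hA : ∀ x, A * b x = b (g x) * A)
    (z : F) : A * Ro h Ψ b (algebraMap F K z) = Ro h Ψ b (algebraMap F K z) * A := by
  unfold Ro
  split_ifs
  · simp
  · rw [mul_smul_comm, Ga_comm hg hA (γ' := (1 - algebraMap F K z)⁻¹) fun y => by
      rw [← map_one (algebraMap F K), ← map_sub, ← map_inv₀, ← Algebra.smul_def, ← Algebra.smul_def, map_smul],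
      smul_mul_assoc]

variable (w : WD h Ψ b)
include w

theorem WD.one (x y : K) : h x y = h 1 (star x * y) := by rw [← w.adj, mul_one]

theorem WD.card : Nat.card (F0 K) = n :=
  Nat.pow_left_injective two_ne_zero (by simp only [← card_eq_sq, w.hs.card, Nat.card_eq_fintype_card (α := K)])

theorem WD.gauss {β : K} (hβ : β + star β = 0) :
    ∑ y, Ψ (h y (β * y)) = if β = 0 then (n : ℂ) ^ 2 else -n := by
  split_ifs with e
  · simp [e, ← w.hs.card]
  rw [sum_congr rfl fun y _ => by rw [w.one, mul_left_comm], sum_norm fun x => Ψ (h 1 (β * x)), card_U1, w.card]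
  obtain ⟨x, hx, k⟩ : ∃ x : K, star x = x ∧ h (β * x) 1 ≠ 0 := by
    by_contra! k
    refine one_ne_zero (h.nd fun y => ?_)
    simpa [e] using real_ind (ker (h.lin 1 ∘ₗ LinearMap.mulLeft F β)) k (β⁻¹ * y)
  have k1 : star (h 1 (β * x)) = -h 1 (β * x) := by
    rw [h.conj, w.one, ← h.neg_right, star_mul', hx, eq_neg_of_add_eq_zero_right hβ]; simp
  have k2 := HF.symm_ne k
  have := AddChar.sum_eq_zero_of_ne_one (ψ := Ψ.compAddMonoidHom
    { toFun := fun x : F0 K => h 1 (β * x), map_zero' := by simp, map_add' := by simp [mul_add] })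
    fun e => w.ne (by
      have := DFunLike.congr_fun e ⟨(del F / h 1 (β * x)) • x, by
        simp [mem_F0, hx, k1, neg_div_neg_eq]⟩
      simpa [k1, k2, neg_div_neg_eq] using this)
  simp only [AddChar.compAddMonoidHom_apply, AddMonoidHom.coe_mk, ZeroHom.coe_mk] at this
  simp [this]

theorem WD.int {s : K} (hs : s * star s = 1) (x : K) : Ro h Ψ b s * b x = b (s * x) * Ro h Ψ b s := by
  unfold Ro
  split_ifs with e
  · simp [e]
  simp only [Ga, mul_sum, sum_mul, mul_smul_comm, smul_mul_assoc, w.hs.mul, smul_smul]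
  congr 1
  refine Fintype.sum_equiv (Equiv.addRight ((1 - s) * x)) _ _ fun y => ?_
  simp only [Equiv.coe_addRight, ← Ψ.map_add_eq_mul]
  have := sub_ne_zero.2 (Ne.symm e)
  congr 2
  · rw [w.one y, w.one y, w.one (y + _), w.one (s * x), ← h.add_right, ← h.add_right]
    congr 1
    simp only [star_add, star_mul', star_sub, star_one, star_eq_inv_of_norm_one hs]
    have := ne_zero_of_norm_one hs
    field_simp; ring
  · ring

theorem WD.tr {s : K} (e : s ≠ 1) : trace ℂ _ (Ro h Ψ b s) = -1 := by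
  simp [Ro, e, Ga, -map_sum, w.hs.tr_sum, w.hs.n0]

theorem WD.tr_Ro (f : K → ℂ) {s : K} (e : s ≠ 1) : trace ℂ _ ((∑ y, f y • b y) * Ro h Ψ b s) =
    -∑ y, f y * Ψ (h y (s / (1 - s) * y)) := by
  rw [Ro, if_neg e, mul_smul_comm, map_smul, Ga, w.hs.tr_mul, smul_eq_mul, neg_mul,
    inv_mul_cancel_left₀ w.hs.n0]
  congr 1
  refine sum_congr rfl fun y _ => ?_
  have := sub_ne_zero.2 (Ne.symm e)
  rw [mul_assoc, ← div_eq_mul_inv, ← Ψ.map_sub_eq_div, mul_neg, h.neg_left, h.neg_right, neg_neg,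
    ← h.sub_right]
  congr 3; field_simp; ring

theorem WD.exi (g : h.GU) : ∃ A : (End ℂ (Fin n → ℂ))ˣ, ∀ x, A * b x = b (g.1 x) * A :=
  w.hs.exists_int g.1.toAddEquiv fun x y => congrArg Ψ (g.2 x y)

theorem WD.sc {g : K → K} {A : (End ℂ (Fin n → ℂ))ˣ} {B : End ℂ (Fin n → ℂ)}
    (hA : ∀ x, A * b x = b (g x) * A) (hB : ∀ x, B * b x = b (g x) * B) : ∃ k : ℂ, B = k • A := by
  obtain ⟨k, hk⟩ := w.hs.scalar (A := A⁻¹ * B) fun x => by
    rw [mul_assoc, hB, Units.inv_mul_eq_iff_eq_mul, ← mul_assoc, ← mul_assoc, hA]; simp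
  exact ⟨k, by rw [Units.inv_mul_eq_iff_eq_mul] at hk; simp [hk]⟩

theorem WD.mu_mem {s : Kˣ} (hs : s ∈ U1 K) : mu F s ∈ h.GU := fun x y => by
  rw [mu_apply, mu_apply, w.adj, ← mul_assoc, mul_comm (star _), show _ = _ from hs, one_mul]

theorem WD.mul {s t : Kˣ} (hs : s ∈ U1 K) (ht : t ∈ U1 K) :
    Ro h Ψ b (s * t) = Ro h Ψ b s * Ro h Ψ b t := by
  by_cases s1 : (s : K) = 1
  · rw [s1, one_mul, Ro.eq_1 _ _ _ 1, if_pos rfl, one_mul]
  by_cases t1 : (t : K) = 1
  · rw [t1, mul_one, Ro.eq_1 _ _ _ 1, if_pos rfl, mul_one]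
  obtain ⟨A, hA⟩ := w.exi ⟨_, w.mu_mem (mul_mem hs ht)⟩
  obtain ⟨k, hk⟩ := w.sc hA (w.int (mul_mem hs ht))
  obtain ⟨l, hl⟩ := w.sc (B := Ro h Ψ b s * Ro h Ψ b t) hA fun x => by
    rw [mul_assoc, w.int ht, ← mul_assoc, w.int hs, mul_assoc, ← mul_assoc (s : K)]; rfl
  have s2 := sub_ne_zero.2 (Ne.symm s1)
  have t2 := sub_ne_zero.2 (Ne.symm t1)
  have e : trace ℂ _ (Ro h Ψ b s * Ro h Ψ b t) = trace ℂ _ (Ro h Ψ b (s * t)) ∧
      trace ℂ _ (Ro h Ψ b (s * t)) ≠ 0 := by
    rw [Ro, if_neg s1, smul_mul_assoc, map_smul, Ga, w.tr_Ro _ t1]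
    simp only [← Ψ.map_add_eq_mul, ← h.add_right, ← add_mul]
    rw [w.gauss (by
      simp only [star_add, star_inv₀, star_div₀, star_sub, star_one, star_eq_inv_of_norm_one hs,
        star_eq_inv_of_norm_one ht]
      have := sub_ne_zero.2 s1
      have := sub_ne_zero.2 t1
      field_simp; ring)]
    have n0 := w.hs.n0
    by_cases e : (s : K) * t = 1
    · rw [if_pos (by field_simp; linear_combination -e)]; simp [Ro, e, n0, pow_two]
    · rw [if_neg fun k => e (by field_simp at k; linear_combination -k)]; simp [w.tr e, n0]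
  simp only [Units.val_mul] at hk
  rw [hk, hl, map_smul, map_smul, smul_eq_mul, smul_eq_mul] at e
  rw [hk, hl, mul_right_cancel₀ (right_ne_zero_of_mul e.2) e.1]

/-- the Weil representation of the torus -/
noncomputable def WD.R : U1 K →* End ℂ (Fin n → ℂ) where
  toFun s := Ro h Ψ b s.1
  map_one' := by simp [Ro]
  map_mul' s t := w.mul s.2 t.2

end Cfsg.Agent.H6.U5
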