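import Cfsg.Agent.H6.U5.W3

/-! The Weil representation of the unitary group. -/

set_option autoImplicit false
set_option linter.unusedSectionVars false

namespace Cfsg.Agent.H6.U5

open Module LinearMap Finset H5.U H6.S5
open scoped Classical

variable {F K : Type*} [Field F] [Fintype F] [StarRing F] [NStar F] [Field K] [Algebra F K] [Fintype K]
  [StarRing K] [StarModule F K] [NStar K] {h : HF F K} {Ψ : AddChar F ℂ} {n v : ℕ}
  {b : Basis K ℂ (End ℂ (Fin n → ℂ))}

variable (K) in
/-- scalars in the torus -/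
def io : U1 F →* U1 K := ((Units.map (algebraMap F K : F →* K)).comp (U1 F).subtype).codRestrict _ fun z => by
  have e : (z.1 : F) * star (z.1 : F) = 1 := z.2
  change algebraMap F K z.1 * star (algebraMap F K z.1) = 1
  rw [← algebraMap_star_comm, ← map_mul, e, map_one]

theorem io_val (z : U1 F) : ((io K z).1 : K) = algebraMap F K z.1 := rfl

theorem io_inj : Function.Injective (io K (F := F)) := fun _ _ e => Subtype.ext (Units.ext
  ((algebraMap F K).injective (congrArg (fun x : U1 K => (x.1 : K)) e)))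

noncomputable instance : Fintype (U1 F →* ℂˣ) := Fintype.ofFinite _

variable (w : WD h Ψ b) {η : U1 F →* ℂˣ}

/-- the isotypic projections for the centre -/
noncomputable def WD.p (η : U1 F →* ℂˣ) : End ℂ (Fin n → ℂ) := pr (w.R.comp (io K)) η

/-- the torus in the unitary group -/
def WD.m : U1 K →* h.GU := ((mu F).comp (U1 K).subtype).codRestrict _ fun s => w.mu_mem s.2

theorem WD.idem : w.p η * w.p η = w.p η := pr_idem _

theorem WD.trR (s : U1 K) : trace ℂ _ (w.R s) = (if s = 1 then n + 1 else 0) - 1 := by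
  split_ifs with e
  · simp [e]
  · exact (w.tr fun k => e (Subtype.ext (Units.ext k))).trans (by simp)

theorem WD.R_comm (s : U1 K) : w.R s * w.p η = w.p η * w.R s :=
  pr_comm _ fun z => by rw [MonoidHom.comp_apply, ← map_mul, mul_comm, map_mul]

theorem WD.comm {g : K ≃ₗ[F] K} (hg : g ∈ h.GU) {A : End ℂ (Fin n → ℂ)}
    (hA : ∀ x, A * b x = b (g x) * A) : A * w.p η = w.p η * A := pr_comm _ fun _ => Ro_comm' hg hA _

theorem WD.tr_p {s : U1 K} (hs : s ∉ (io K (F := F)).range) :
    trace ℂ _ (w.R s * w.p η) = -if η = 1 then 1 else 0 := by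
  have k : ∀ z : U1 F, s * io K z ≠ 1 := fun z e => hs ⟨z⁻¹, by rw [map_inv, inv_eq_of_mul_eq_one_left e]⟩
  simp only [WD.p, tr_pr, MonoidHom.comp_apply, ← map_mul, w.trR, k, if_false, ← sum_mul, sum_char]
  split_ifs <;> simp

theorem WD.rk (hv : v * Nat.card (U1 F) = n + 1) :
    trace ℂ _ (w.p η) = v - if η = 1 then 1 else 0 := by
  have e : (v : ℂ) * Fintype.card (U1 F) = n + 1 := by rw [← Nat.card_eq_fintype_card]; exact_mod_cast hv
  rw [← one_mul (w.p η), WD.p, tr_pr]
  simp only [MonoidHom.comp_apply, one_mul, w.trR, map_eq_one_iff _ io_inj, mul_sub,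
    sum_sub_distrib, mul_one, sum_char, mul_ite, mul_zero, sum_ite_eq', mem_univ, if_true, ← e]
  split_ifs <;> simp [← e, mul_comm (v : ℂ)]

theorem WD.exists_rho (hv : v * Nat.card (U1 F) = n + 1) : ∃ ρ : Representation ℂ h.GU (Fin n → ℂ),
    (∀ g x, ρ g * b x = b (g.1 x) * ρ g) ∧ ∀ z : U1 F, z ^ v = 1 → ρ (w.m (io K z)) = w.R (io K z) := by
  obtain ⟨z0, z1, z2⟩ := exists_norm_one_ne_one F
  have := NeZero.mk (Monoid.exponent_ne_zero_of_finite (G := U1 F))
  obtain ⟨η, hη⟩ := CommGroup.exists_apply_ne_one_of_hasEnoughRootsOfUnity (U1 F) ℂ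
    (a := ⟨.mk0 z0 (ne_zero_of_norm_one z1), z1⟩) fun e => z2 (congrArg (fun x : U1 F => (x.1 : F)) e)
  have η1 : η ≠ 1 := by rintro rfl; exact hη rfl
  choose A hA using w.exi
  let D := fun η A => LinearMap.det (res (w.p η) A)
  have r1 : finrank ℂ (LinearMap.range (w.p η)) = finrank ℂ (LinearMap.range (w.p 1)) + 1 := by
    have a := (rk_res w.idem).trans (w.rk (η := η) hv)
    have b := (rk_res w.idem).trans (w.rk (η := 1) hv)
    rw [if_neg η1] at a
    exact Nat.cast_injective (R := ℂ) (by simp [a, b])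
  have r2 : finrank ℂ (LinearMap.range (w.p η)) = v := by
    simpa [η1] using (rk_res w.idem).trans (w.rk (η := η) hv)
  have D1 : ∀ η, D η 1 = 1 := fun η => by simp [D, res_one w.idem]
  have Dm : ∀ η B g, D η (B * A g) = D η B * D η (A g) := fun η B g => by
    simp only [D, res_mul w.idem (w.comm g.2 (hA g)), map_mul]
  have D0 : ∀ η g, D η (A g) ≠ 0 := fun η g =>
    right_ne_zero_of_mul (by rw [← Dm η ↑(A g)⁻¹, Units.inv_mul, D1]; exact one_ne_zero)
  let N : End ℂ (Fin n → ℂ) → End ℂ (Fin n → ℂ) := fun B => (D 1 B / D η B) • B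
  have Ns : ∀ {k : ℂ} B, k ≠ 0 → N (k • B) = N B := fun {k} B k0 => by
    simp only [N, D, map_smul, det_smul, r1, smul_smul]
    congr 1; field_simp; ring
  have Nu : ∀ g (B : End ℂ (Fin n → ℂ)), IsUnit B → (∀ x, B * b x = b (g.1 x) * B) → N (A g) = N B :=
    fun g B u hB => by
      obtain ⟨k, hk⟩ := w.sc (hA g) hB
      have : Nontrivial (End ℂ (Fin n → ℂ)) := ⟨_, _, b.ne_zero 0⟩
      rw [hk, Ns _ fun e => u.ne_zero (by simp [hk, e])]
  refine ⟨⟨⟨fun g => N (A g), ?_⟩, fun g g' => ?_⟩, fun g x => ?_, fun z hz => ?_⟩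
  · rw [Nu 1 1 isUnit_one (by simp)]; simp [N, D1]
  · refine (Nu (g * g') (A g * A g') (Units.isUnit (_ * _)) fun x => by
      rw [mul_assoc, hA, ← mul_assoc, hA, mul_assoc]; rfl).trans ?_
    simp only [N, Dm, smul_mul_smul_comm, mul_div_mul_comm]
  · simp [N, hA]
  · refine (Nu (w.m (io K z)) _ ((Group.isUnit (io K z)).map w.R) (w.int (io K z).2)).trans ?_
    have k : ∀ η, D η (w.R (io K z)) = η z ^ finrank ℂ (LinearMap.range (w.p η)) := fun η => by
      have e : w.R (io K z) * w.p η = (η z : ℂ) • (1 * w.p η) := by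
        rw [one_mul]; exact mul_pr (w.R.comp (io K)) z
      simp only [D]
      rw [← res_mul_p w.idem, e, map_smul, res_mul_p w.idem, res_one w.idem, det_smul, map_one, mul_one]
    simp only [N, k, r2, ← Units.val_pow_eq_pow_val, ← map_pow, hz]
    simp

end Cfsg.Agent.H6.U5
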