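import Cfsg.Agent.H6.U5.W4

/-! Orbits on vectors and the commutant of the Weil representation. -/

set_option autoImplicit false
set_option linter.unusedSectionVars false

namespace Cfsg.Agent.H6.U5

open Module LinearMap Finset H5.U H6.S5
open scoped Classical

variable {F K : Type*} [Field F] [Fintype F] [StarRing F] [NStar F] [Field K] [Algebra F K] [Fintype K]
  [StarRing K] [StarModule F K] [NStar K] {h : HF F K} {Ψ : AddChar F ℂ} {n : ℕ}
  {b : Basis K ℂ (End ℂ (Fin n → ℂ))} {L : Subgroup (K ≃ₗ[F] K)} [Fintype L]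
  {ρ : Representation ℂ L (Fin n → ℂ)} {η : U1 F →* ℂˣ} {A : End ℂ (Fin n → ℂ)} {f : K → ℂ}

/-- the Weil representation of a subgroup -/
structure WL (h : HF F K) (Ψ : AddChar F ℂ) (b : Basis K ℂ (End ℂ (Fin n → ℂ)))
    (ρ : Representation ℂ L (Fin n → ℂ)) : Prop extends WD h Ψ b where
  le : L ≤ h.GU
  int' : ∀ g x, ρ g * b x = b (g.1 x) * ρ g

variable (w : WL h Ψ b ρ)

theorem WL.cm (g : L) : ρ g * w.p η = w.p η * ρ g := w.comm (w.le g.2) (w.int' g)

/-- the Weil characters -/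
noncomputable def WL.ze (η : U1 F →* ℂˣ) (g : L) : ℂ := trace ℂ _ (ρ g * w.p η)

theorem WL.fix (g : L) (z : U1 F) : trace ℂ _ (ρ g * w.R (io K z)) * trace ℂ _ (ρ g⁻¹ * w.R (io K z⁻¹)) =
    Nat.card {x // (z.1 : F) • g.1 x = x} :=
  w.hs.tr_int (fun x => by
    rw [mul_assoc, show w.R _ * _ = _ from w.int (io K z).2 x, ← mul_assoc, w.int', mul_assoc, io_val,
      ← Algebra.smul_def, map_smul]; rfl) (by simp) (by
    rw [show ρ g⁻¹ * w.R (io K z⁻¹) = w.R (io K z⁻¹) * ρ g⁻¹ from Ro_comm' (w.le g⁻¹.2) (w.int' _) _, mul_assoc, ← mul_assoc (w.R _),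
      ← map_mul, ← map_mul, mul_inv_cancel, map_one, map_one, one_mul, ← map_mul, mul_inv_cancel, map_one])

variable (L) in
/-- action of the group and the scalars of norm one -/
@[reducible] def actZ : MulAction (L × U1 F) K where
  smul γ x := (γ.2.1 : F) • γ.1.1 x
  one_smul x := one_smul F x
  mul_smul γ δ x := by
    change ((γ.2.1 : F) * δ.2.1) • γ.1.1 (δ.1.1 x) = (γ.2.1 : F) • γ.1.1 ((δ.2.1 : F) • δ.1.1 x)
    rw [map_smul, mul_smul]

theorem WL.orb (hK : 2 ≤ finrank F K) {u u' : K} (h1 : h u u = 1) (h2 : h u' u' = 1)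
    (nt : ∀ g ∈ L, ∀ z : F, z * star z = 1 → g u ≠ z • u') : ∃ r : ℕ, 2 * Nat.card (F0 F) ≤ r ∧
      ∑ η, ∑ g, w.ze η g * w.ze η g⁻¹ = r * Nat.card L := by
  let _ := actZ L
  refine ⟨Fintype.card (MulAction.orbitRel.Quotient (L × U1 F) K), ?_, ?_⟩
  · let I : K → F0 F × Prop := fun x => (⟨h x x, h.conj x x⟩, ∃ a : F, ∃ g ∈ L, x = a • g u)
    have k : ∀ (γ : L × U1 F) x, (I x).2 → (I (γ • x)).2 := by
      rintro γ _ ⟨a, g, hg, rfl⟩
      exact ⟨γ.2.1 * a, _, mul_mem γ.1.2 hg, show (γ.2.1 : F) • γ.1.1 _ = _ by simp [smul_smul]⟩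
    have := Nat.card_le_card_of_surjective (Quotient.lift (s := MulAction.orbitRel (L × U1 F) K) I (by
      rintro _ y ⟨γ, rfl⟩
      refine Prod.ext (Subtype.ext ?_) (propext ⟨fun e => by simpa using k γ⁻¹ _ e, k γ y⟩)
      change h ((γ.2.1 : F) • γ.1.1 y) ((γ.2.1 : F) • γ.1.1 y) = h y y
      rw [h.smul_left, h.smul_right, ← mul_assoc, show (γ.2.1 : F) * star (γ.2.1 : F) = 1 from γ.2.2, one_mul, w.le γ.1.2]))
      fun ⟨c, P⟩ => by
        obtain ⟨a, ha⟩ := exists_norm c.2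
        by_cases hP : P
        · exact ⟨.mk'' (a • u), Prod.ext (Subtype.ext (by simp [I, h1, ← ha, mul_comm]))
            (propext (iff_of_true ⟨a, 1, one_mem _, rfl⟩ hP))⟩
        by_cases a0 : a = 0
        · obtain ⟨e, -, e0, he⟩ := HF.exists_iso (h := h) (K := ⊤) (by simpa)
          refine ⟨.mk'' e, Prod.ext (Subtype.ext (by simp [I, he, ← ha, a0])) (propext (iff_of_false ?_ hP))⟩
          rintro ⟨a, g, hg, rfl⟩
          simp [w.le hg u u, h1] at he
          simp [he] at e0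
        refine ⟨.mk'' (a • u'), Prod.ext (Subtype.ext (by simp [I, h2, ← ha, mul_comm])) (propext (iff_of_false ?_ hP))⟩
        rintro ⟨a', g, hg, e⟩
        have e' := congrArg (fun x => h x x) e
        simp only [h.smul_left, h.smul_right, h2, w.le hg u u, h1, mul_one] at e'
        have a1 : a' ≠ 0 := by rintro rfl; simp [a0] at e'
        have := star_ne_zero' a1
        exact nt g hg (a / a') (by rw [star_div₀]; field_simp; linear_combination e')
          (by rw [div_eq_inv_mul, mul_smul, e, inv_smul_smul₀ a1])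
    simpa [mul_comm, Nat.card_eq_fintype_card] using this
  have b := congrArg (Nat.cast (R := ℂ)) (MulAction.sum_card_fixedBy_eq_card_orbits_mul_card_group (L × U1 F) K)
  rw [sum_comm]
  simp only [WL.ze, WD.p, pr_parseval, MonoidHom.comp_apply, w.fix, ← mul_sum]
  rw [inv_mul_eq_iff_eq_mul₀ (by simp), ← Fintype.sum_prod_type', Nat.card_eq_fintype_card (α := L)]
  simp only [Nat.cast_sum, Fintype.card_prod, Nat.cast_mul, ← Nat.card_eq_fintype_card] at b ⊢
  exact (show _ = _ from b).trans (by rw [Nat.card_prod]; push_cast; ring)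

variable (L) in
/-- invariant functions -/
def Inv (f : K → ℂ) : Prop := (∀ g ∈ L, ∀ y, f (g y) = f y) ∧ ∀ z : U1 F, ∀ y, f ((z.1 : F) • y) = f y

omit [Fintype L] in
theorem comm_iff {g : K ≃ₗ[F] K} {B : (End ℂ (Fin n → ℂ))ˣ} (hB : ∀ x, B * b x = b (g x) * B) :
    B * ∑ y, f y • b y = (∑ y, f y • b y) * B ↔ ∀ y, f (g y) = f y := by
  simp only [mul_sum, mul_smul_comm, hB, ← smul_mul_assoc, ← sum_mul, Units.mul_left_inj]
  rw [← Equiv.sum_comp g.toEquiv fun y => f y • b y, ← sub_eq_zero, ← sum_sub_distrib]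
  simp only [LinearEquiv.coe_toEquiv]
  exact ⟨fun e y => (sub_eq_zero.1 (Fintype.linearIndependent_iff.1
    (b.linearIndependent.comp g g.injective) (fun y => f y - f (g y)) (by simpa [sub_smul] using e) y)).symm, fun e => by simp [e]⟩

include w in
theorem WL.inv_iff : Inv L f ↔ (∀ g, ρ g * ∑ y, f y • b y = (∑ y, f y • b y) * ρ g) ∧
    ∀ z : U1 F, w.R (io K z) * ∑ y, f y • b y = (∑ y, f y • b y) * w.R (io K z) :=
  and_congr (Subtype.forall'.trans (forall_congr' fun g => (comm_iff (B := ρ.toHomUnits g) (w.int' g)).symm))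
    (forall_congr' fun z => by
      simpa [mu_apply, io_val, ← Algebra.smul_def] using
        (comm_iff (f := f) (g := mu F (io K z)) (B := w.R.toHomUnits (io K z)) (w.int (io K z).2)).symm)

variable (ρ) in
/-- the averaging operator -/
noncomputable def av : End ℂ (Fin n → ℂ) := (Nat.card L : ℂ)⁻¹ • ∑ g, ρ g

theorem mul_av (g : L) : ρ g * av ρ = av ρ := by
  rw [av, mul_smul_comm, mul_sum, ← Equiv.sum_comp (Equiv.mulLeft g) fun g => ρ g]; simp

theorem av_comm (e : ∀ g, ρ g * A = A * ρ g) : av ρ * A = A * av ρ := by simp [av, mul_sum, sum_mul, e]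

theorem av_mul (g : L) : av ρ * ρ g = av ρ := by
  rw [av, smul_mul_assoc, sum_mul, ← Equiv.sum_comp (Equiv.mulRight g) fun g => ρ g]; simp

theorem av_idem : av ρ * av ρ = av ρ := by
  nth_rw 1 [av]
  simp [sum_mul, mul_av, ← Nat.cast_smul_eq_nsmul ℂ, smul_smul]

/-- the shape of the Weil characters -/
def WL.Sh (η : U1 F →* ℂˣ) (k : ℕ) : Prop :=
  ∑ g, w.ze η g * w.ze η g⁻¹ = (k + 1) * Nat.card L ∧ (k = 0 ∨ k = 1 ∧ η ≠ 1 ∧ ∑ g, w.ze η g = Nat.card L)

theorem WL.tr_av (e : ∑ g, w.ze η g = Nat.card L) : trace ℂ _ (av ρ * w.p η) = 1 := by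
  simp only [av, smul_mul_assoc, sum_mul, map_smul, map_sum]
  exact (congrArg _ e).trans (inv_mul_cancel₀ (by simp))

theorem WL.dec {k : ℕ} (sh : w.Sh η k) (h1 : ∀ g, ρ g * A = A * ρ g) (h2 : A * w.p η = w.p η * A) :
    ∃ α β : ℂ, A * w.p η = α • (av ρ * w.p η) + β • w.p η := by
  obtain ⟨e, rfl | ⟨rfl, -, e'⟩⟩ := sh
  · obtain ⟨β, hβ⟩ := schur w.idem ρ w.cm (by simpa [WL.ze] using e) h2 h1
    exact ⟨0, β, by simp [hβ]⟩
  have c := av_comm (w.cm (η := η))
  have i : av ρ * w.p η * (av ρ * w.p η) = av ρ * w.p η := by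
    rw [mul_assoc, ← mul_assoc (w.p η), ← c, mul_assoc, w.idem, ← mul_assoc, av_idem]
  have c1 : ∀ g, ρ g * (av ρ * w.p η) = av ρ * w.p η * ρ g := fun g => by
    rw [← mul_assoc, mul_av, mul_assoc, ← w.cm, ← mul_assoc, av_mul]
  have c2 : A * (av ρ * w.p η) = av ρ * w.p η * A := by rw [← mul_assoc, ← av_comm h1, mul_assoc, h2, mul_assoc]
  have t : ∀ g, trace ℂ _ (ρ g * (av ρ * w.p η)) = 1 := fun g => by rw [← mul_assoc, mul_av, w.tr_av e']
  obtain ⟨α, hα⟩ := schur i ρ c1 (by simp [t]) c2 h1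
  obtain ⟨β, hβ⟩ := schur (p := w.p η - av ρ * w.p η) (by
      rw [mul_sub, sub_mul, sub_mul, i, w.idem, mul_assoc, w.idem, ← mul_assoc, ← c, mul_assoc, w.idem]; abel)
    ρ (fun g => by rw [mul_sub, sub_mul, c1, w.cm]) (by
      have := (Equiv.sum_comp (Equiv.inv L) (w.ze η)).trans e'
      simp only [mul_sub, map_sub, t, sub_mul, sum_sub_distrib, mul_one, one_mul]
      simp only [WL.ze, Equiv.inv_apply] at e e' this
      rw [e, e', this]; simp; ring)
    (by rw [mul_sub, sub_mul, c2, h2]) h1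
  exact ⟨α - β, β, by rw [mul_sub, hα, sub_eq_iff_eq_add] at hβ; rw [hβ]; module⟩

end Cfsg.Agent.H6.U5
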