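import Cfsg.Agent.H6.U5.W5
import Cfsg.Agent.H1.U5Cay

/-! The Cayley transform: blocks of the torus are permuted by translations. -/

set_option autoImplicit false
set_option linter.unusedSectionVars false

namespace Cfsg.Agent.H6.U5

open Module LinearMap Finset H5.U H6.S5
open scoped Classical

variable {F K : Type*} [Field F] [Fintype F] [StarRing F] [NStar F] [Field K] [Algebra F K] [Fintype K]
  [StarRing K] [StarModule F K] [NStar K] {h : HF F K} {Ψ : AddChar F ℂ} {n : ℕ}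
  {b : Basis K ℂ (End ℂ (Fin n → ℂ))} {L : Subgroup (K ≃ₗ[F] K)} [Fintype L]
  {ρ : Representation ℂ L (Fin n → ℂ)} {η : U1 F →* ℂˣ} {f : K → ℂ} {s s' : U1 K} {γ γ' : K}
  {T : Subgroup (U1 K)} {z : U1 F}

/-- the Cayley transform -/
def cay (s : U1 K) : K := (s.1 : K) / (1 - s.1)

theorem mem_io : s ∈ (io K (F := F)).range ↔ (s.1 : K) ∈ (⊥ : Subalgebra F K) := by
  refine ⟨by rintro ⟨z, rfl⟩; exact Subalgebra.algebraMap_mem _ _, fun e => ?_⟩
  obtain ⟨a, ha⟩ := Algebra.mem_bot.1 e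
  have : a * star a = 1 := (algebraMap F K).injective (by
    rw [map_mul, algebraMap_star_comm, ha, map_one]; exact s.2)
  exact ⟨⟨.mk0 a (ne_zero_of_norm_one this), this⟩, Subtype.ext (Units.ext ha)⟩

theorem ne1 (hs : s ∉ (io K (F := F)).range) : (1 : K) - s.1 ≠ 0 := fun e =>
  hs (mem_io.2 (sub_eq_zero.1 e ▸ one_mem _))

theorem cay_eq (hs : s ∉ (io K (F := F)).range) : cay s = s.1 * (cay s + 1) := by
  have := ne1 hs; rw [cay]; field_simp; ring

theorem div_mem' {x y : K} (hx : x ∈ (⊥ : Subalgebra F K)) (hy : y ∈ (⊥ : Subalgebra F K)) :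
    x / y ∈ (⊥ : Subalgebra F K) := by
  obtain ⟨a, rfl⟩ := Algebra.mem_bot.1 hx
  obtain ⟨c, rfl⟩ := Algebra.mem_bot.1 hy
  exact map_div₀ (algebraMap F K) a c ▸ Subalgebra.algebraMap_mem _ _

theorem cay_mem (hs : s ∉ (io K (F := F)).range) :
    cay s + star (cay s) = -1 ∧ cay s ∉ (⊥ : Subalgebra F K) := by
  have := ne1 hs
  have a : (s.1 : K) - 1 ≠ 0 := fun e => this (by linear_combination -e)
  refine ⟨?_, fun e => hs (mem_io.2 ?_)⟩
  · simp only [cay, star_div₀, star_sub, star_one, star_eq_inv_of_norm_one s.2]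
    field_simp; ring
  · convert div_mem' e (add_mem e (one_mem _)) using 1
    rw [cay]; field_simp; ring

theorem cay_inj (hs : s ∉ (io K (F := F)).range) (hs' : s' ∉ (io K (F := F)).range) (e : cay s = cay s') :
    s = s' := by
  rw [cay, cay, div_eq_div_iff (ne1 hs) (ne1 hs')] at e
  exact Subtype.ext (Units.ext (by linear_combination e))

theorem exists_cay (h1 : γ + star γ = -1) (h2 : γ ∉ (⊥ : Subalgebra F K)) :
    ∃ s : U1 K, s ∉ (io K (F := F)).range ∧ cay s = γ := by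
  have a : γ ≠ 0 := by rintro rfl; exact h2 (zero_mem _)
  have a' : γ + 1 ≠ 0 := fun e => h2 (eq_neg_of_add_eq_zero_left e ▸ neg_mem (one_mem _))
  have c : cay (⟨.mk0 _ (div_ne_zero a a'), show γ / (γ + 1) * star (γ / (γ + 1)) = 1 by
      rw [star_div₀, star_add, star_one, eq_sub_of_add_eq' h1, show -1 - γ + 1 = -γ by ring]
      field_simp; ring⟩ : U1 K) = γ := by
    simp only [cay, Units.val_mk0]; field_simp; ring
  exact ⟨_, fun e => h2 (c ▸ div_mem' (mem_io.1 e) (sub_mem (one_mem _) (mem_io.1 e))), c⟩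

variable (h Ψ L) in
/-- points not separated by the Fourier transforms of the invariant functions -/
def Eqv (γ γ' : K) : Prop := ∀ f, Inv L f → ∑ y, f y * Ψ (h y (γ * y)) = ∑ y, f y * Ψ (h y (γ' * y))

theorem Eqv.map (hL : L ≤ h.GU) (e : Eqv h Ψ L γ γ') {κ : F} (k0 : κ ≠ 0) (c : F) :
    Eqv h Ψ L ((κ * star κ) • γ + algebraMap F K c) ((κ * star κ) • γ' + algebraMap F K c) := fun f hf => by
  have k : ∀ γ : K, ∑ y, f y * Ψ (h y (((κ * star κ) • γ + algebraMap F K c) * y)) =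
      ∑ y, f (κ⁻¹ • y) * Ψ (star c * h (κ⁻¹ • y) (κ⁻¹ • y)) * Ψ (h y (γ * y)) := fun γ =>
    Fintype.sum_equiv (MulAction.toPerm (Units.mk0 κ k0)) _ _ fun y => by
      simp [Units.smul_def, k0, add_mul, ← Algebra.smul_def, mul_assoc, ← Ψ.map_add_eq_mul, add_comm,
        mul_left_comm κ]
  rw [k, k]
  refine e _ ⟨fun g hg y => by beta_reduce; rw [← map_smul, hf.1 g hg, hL hg], fun z y => ?_⟩
  beta_reduce
  rw [smul_comm κ⁻¹, hf.2, h.smul_left, h.smul_right, ← mul_assoc (z.1 : F),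
    show (z.1 : F) * star (z.1 : F) = 1 from z.2, one_mul]

variable (w : WL h Ψ b ρ)

theorem WL.eqv_iff (hs : s ∉ (io K (F := F)).range) (hs' : s' ∉ (io K (F := F)).range) :
    Eqv h Ψ L (cay s) (cay s') ↔ ∀ A, (∀ g, ρ g * A = A * ρ g) →
      (∀ z : U1 F, w.R (io K z) * A = A * w.R (io K z)) → trace ℂ _ (A * w.R s) = trace ℂ _ (A * w.R s') := by
  have k := fun f => w.tr_Ro f (sub_ne_zero.1 (ne1 hs)).symm
  have k' := fun f => w.tr_Ro f (sub_ne_zero.1 (ne1 hs')).symm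
  refine ⟨fun e A h1 h2 => ?_, fun e f hf => neg_injective ((k f).symm.trans
    ((e _ (w.inv_iff.1 hf).1 (w.inv_iff.1 hf).2).trans (k' f)))⟩
  rw [← b.sum_repr A] at h1 h2 ⊢
  exact (k _).trans ((congrArg _ (e _ (w.inv_iff.2 ⟨h1, h2⟩))).trans (k' _).symm)

/-- the hypotheses on the torus -/
structure WT (T : Subgroup (U1 K)) (φ : L) (σ : K →ₐ[F] K) (k : (U1 F →* ℂˣ) → ℕ) : Prop where
  sm : Sm φ σ
  mem : ∀ s ∈ T, ∃ g : L, ρ g = w.R s
  bot : ∀ s ∈ T, s ∈ (io K (F := F)).range → s = 1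
  dec : ∀ s s' : U1 K, σ s.1 = s'.1 → ∃ a ∈ T, ∃ z : U1 F, s' = s * a * io K z ∧
    (z = 1 → ∃ a ∈ T, ∃ z : U1 F, s = a * io K z)
  sh : ∀ η, w.Sh η (k η)
  sep : ∀ z : U1 F, (∀ η, k η = 1 → η z = 1) → z = 1

variable {w} {φ : L} {σ : K →ₐ[F] K} {k : (U1 F →* ℂˣ) → ℕ} (c : WT w T φ σ k)
include c

theorem WT.tr_e {a : U1 K} (ha : a ∈ T) (z : U1 F) :
    trace ℂ _ (av ρ * w.p η * w.R (s * a * io K z)) = η z * trace ℂ _ (av ρ * w.p η * w.R s) := by
  obtain ⟨g, hg⟩ := c.mem a ha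
  have e1 : w.p η * w.R (io K z) = (η z : ℂ) • w.p η := (w.R_comm _).symm.trans (mul_pr (w.R.comp (io K)) z)
  rw [mul_comm _ (io K z), map_mul w.R, map_mul w.R, ← hg, ← mul_assoc, mul_assoc (av ρ), e1, ← mul_assoc,
    trace_mul_comm, mul_smul_comm, smul_mul_assoc, mul_smul_comm, map_smul, ← mul_assoc, ← mul_assoc, mul_av]; rfl

theorem WT.inv (hs : s ∉ (io K (F := F)).range) {a : U1 K} (ha : a ∈ T)
    (hs' : s * a ∉ (io K (F := F)).range) : Eqv h Ψ L (cay (s * a)) (cay s) :=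
  (w.eqv_iff hs' hs).2 fun A h1 h2 => by
    rw [← mul_one A, ← sum_pr (w.R.comp (io K (F := F))), mul_sum, sum_mul, sum_mul, map_sum, map_sum]
    refine sum_congr rfl fun η _ => ?_
    obtain ⟨α, β, e⟩ := w.dec (c.sh η) h1 (pr_comm _ fun z => (h2 z).symm)
    have := c.tr_e (η := η) (s := s) ha 1
    simp only [map_one, mul_one, Units.val_one, one_mul] at this
    rw [show A * pr _ η = _ from e]
    simp only [add_mul, smul_mul_assoc, map_add, map_smul, this, ← w.R_comm, w.tr_p hs, w.tr_p hs']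

theorem WT.nm {a : U1 K} (ha : a ∈ T) (a1 : a ≠ 1) : a * io K z ∉ (io K (F := F)).range := fun e =>
  a1 (c.bot a ha (by simpa using mul_mem e (inv_mem (⟨z, rfl⟩ : io K z ∈ (io K (F := F)).range))))

theorem WT.sep' {a : U1 K} (ha : a ∈ T) (a1 : a ≠ 1) (hs : s ∉ (io K (F := F)).range)
    (e : Eqv h Ψ L (cay s) (cay (a * io K z))) : ∃ a ∈ T, a ≠ 1 ∧ s = a * io K z := by
  have k0 : ∀ η, k η = 1 → ∀ {a}, a ∈ T → ∀ z : U1 F,
      trace ℂ _ (av ρ * w.p η * w.R (a * io K z)) = η z := fun η e a ha z => by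
    have := c.tr_e (η := η) (s := 1) ha z
    rwa [one_mul, map_one, mul_one, w.tr_av ((c.sh η).2.resolve_left (by omega)).2.2, mul_one] at this
  have k1 : ∀ η g, ρ g * (av ρ * w.p η) = av ρ * w.p η * ρ g := fun η g => by
    rw [← mul_assoc, mul_av, mul_assoc, ← w.cm, ← mul_assoc, av_mul]
  have k2 : ∀ η, k η = 1 → trace ℂ _ (av ρ * w.p η * w.R s) = η z := fun η e' =>
    ((w.eqv_iff hs (c.nm ha a1)).1 e _ (k1 η) fun z => by
      rw [← mul_assoc, ← av_comm fun g => show ρ g * w.R (io K z) = _ from Ro_comm' (w.le g.2) (w.int' g) _,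
        mul_assoc, w.R_comm, mul_assoc]).trans (k0 η e' ha z)
  have s0 : σ s.1 * star (σ s.1) = 1 := by
    rw [← show σ (star _) = star (σ _) from gal_star (AlgEquiv.ofBijective σ σ.bijective) _, ← map_mul,
      show (s.1 : K) * star (s.1 : K) = 1 from s.2, map_one]
  obtain ⟨a', ha', z', e1, e2⟩ := c.dec s ⟨.mk0 _ (ne_zero_of_norm_one s0), s0⟩ rfl
  obtain ⟨a2, ha2, z2, rfl⟩ := e2 (c.sep _ fun η e' => by
    have := c.tr_e (η := η) (s := s) ha' z'
    have k3 : ρ φ * w.R s = w.R (s * a' * io K z') * ρ φ := e1 ▸ Ro_comm (w.le φ.2) (w.int' φ) c.sm s.1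
    rw [k2 η e', ← mul_one (w.R _), ← map_one ρ, ← mul_inv_cancel φ, map_mul ρ, ← mul_assoc (w.R _),
      ← k3, ← mul_assoc, trace_mul_comm, ← mul_assoc _ (ρ φ), ← k1 η φ, ← mul_assoc, ← mul_assoc,
      ← map_mul ρ, inv_mul_cancel, map_one, one_mul, k2 η e'] at this
    exact Units.ext (mul_right_cancel₀ (η z).ne_zero (this.symm.trans (one_mul _).symm)))
  refine ⟨a2, ha2, by rintro rfl; exact hs ⟨z2, by simp⟩, ?_⟩
  rw [eq_of_div_eq_one (c.sep (z2 / z) fun η e' => by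
    rw [map_div, Units.ext ((k0 η e' ha2 z2).symm.trans (k2 η e')), div_self'])]

variable (T) in
omit c in
/-- the blocks -/
noncomputable def Bl (z : U1 F) : Finset K := (univ.filter fun a : T => a ≠ 1).image fun a => cay (a.1 * io K z)

omit c in
theorem mem_Bl : γ ∈ Bl T z ↔ ∃ a ∈ T, a ≠ 1 ∧ cay (a * io K z) = γ := by
  simp only [Bl, mem_image, mem_filter, mem_univ, true_and, Subtype.exists' (p := (· ∈ T)), ← exists_prop (a := _ ∈ T),
    ne_eq, Subtype.ext_iff (p := (· ∈ T)), OneMemClass.coe_one]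

theorem WT.card_Bl : (Bl T z).card + 1 = Nat.card T := by
  have nm : ∀ a : T, a ∈ univ.filter (· ≠ 1) → _ := fun a ha =>
    c.nm (z := z) a.2 fun e => (mem_filter.1 ha).2 (Subtype.ext e)
  rw [Bl, card_image_of_injOn fun a ha a' ha' e =>
    Subtype.ext (mul_right_cancel (cay_inj (nm a ha) (nm a' ha') e)), filter_ne', card_erase_add_one (mem_univ _),
    card_univ, Nat.card_eq_fintype_card]

theorem WT.perm {β c' : F} (b0 : β ≠ 0) (b1 : star β = β) (hc : c' + star c' = β - 1) (z : U1 F) :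
    ∃ z' : U1 F, ∀ γ ∈ Bl T z, β • γ + algebraMap F K c' ∈ Bl T z' := by
  obtain ⟨κ, k0, rfl⟩ := exists_norm' b1 b0
  have k1 := star_ne_zero' k0
  have ex : ∀ {β c' : F} {γ}, β ≠ 0 → star β = β → c' + star c' = β - 1 → γ ∉ (io K (F := F)).range →
      ∃ s : U1 K, s ∉ (io K (F := F)).range ∧ cay s = β • cay γ + algebraMap F K c' :=
    fun {β c' γ} b0 b1 hc hγ => exists_cay (by
      rw [star_add, star_smul, b1, ← algebraMap_star_comm, add_add_add_comm, ← smul_add, (cay_mem hγ).1,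
        ← map_add, hc]; simp [Algebra.smul_def]; ring) fun e => (cay_mem hγ).2 (by
      simpa [b0] using Subalgebra.smul_mem _ (sub_mem e (Subalgebra.algebraMap_mem _ c')) β⁻¹)
  by_cases ne : Bl T z = ∅
  · exact ⟨z, by simp [ne]⟩
  obtain ⟨_, hγ⟩ := nonempty_of_ne_empty ne
  obtain ⟨a, ha, a1, rfl⟩ := mem_Bl.1 hγ
  obtain ⟨s, hs, e⟩ := ex b0 b1 hc (c.nm (z := z) ha a1)
  obtain ⟨a', ha', z', rfl⟩ : ∃ a' ∈ T, ∃ z' : U1 F, s = a' * io K z' := by
    by_contra! k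
    have nm : ∀ a' : T, s * a' ∉ (io K (F := F)).range := fun a' ⟨z', e⟩ =>
      k _ (inv_mem a'.2) z' (by rw [e, mul_comm s, inv_mul_cancel_left])
    have := card_le_card_of_injOn (s := univ) (t := Bl T z) (fun a' : T => (κ⁻¹ * star κ⁻¹) • cay (s * a'.1) +
      algebraMap F K (-(κ⁻¹ * star κ⁻¹) * c')) (fun a' _ => by
        obtain ⟨s', hs', e'⟩ := ex (β := κ⁻¹ * star κ⁻¹) (c' := -(κ⁻¹ * star κ⁻¹) * c') (by simp [k0])
          (star_norm _) (by rw [star_mul', star_neg, star_norm, ← mul_add, hc, star_inv₀]; field_simp; ring)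
          (nm a')
        have := (c.inv hs a'.2 (nm a')).map w.le (inv_ne_zero k0) (-(κ⁻¹ * star κ⁻¹) * c')
        rw [← e', e, smul_add, smul_smul, show κ⁻¹ * star κ⁻¹ * (κ * star κ) = 1 by
          rw [star_inv₀]; field_simp, one_smul, Algebra.smul_def, ← map_mul, neg_mul, map_neg,
          add_neg_cancel_right] at this
        obtain ⟨a2, h1, h2, rfl⟩ := c.sep' ha a1 hs' this
        exact mem_coe.2 (mem_Bl.2 ⟨a2, h1, h2, e'⟩)) fun a1 _ a2 _ e => Subtype.ext (mul_left_cancel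
          (cay_inj (nm a1) (nm a2) (smul_right_injective K (by simp [k0]) (add_right_cancel e))))
    rw [card_univ, ← Nat.card_eq_fintype_card, ← c.card_Bl (z := z)] at this
    omega
  refine ⟨z', fun γ hγ => ?_⟩
  obtain ⟨a2, ha2, a3, rfl⟩ := mem_Bl.1 hγ
  obtain ⟨s', hs', e'⟩ := ex b0 b1 hc (c.nm (z := z) ha2 a3)
  have e2 : a2 * io K z = a * io K z * (a2 / a) := by rw [mul_right_comm, mul_div_cancel]
  have := (c.inv (c.nm (z := z) ha a1) (div_mem ha2 ha) (e2 ▸ c.nm ha2 a3)).map w.le k0 c'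
  rw [← e2, ← e', ← e] at this
  obtain ⟨a4, h1, h2, rfl⟩ := c.sep' ha' (by rintro rfl; exact hs ⟨z', by simp⟩) hs' this
  exact mem_Bl.2 ⟨a4, h1, h2, e'⟩

end Cfsg.Agent.H6.U5
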