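import Cfsg.Agent.H6.U5.W6

/-! Not too many Weil characters have a trivial constituent. -/

set_option autoImplicit false
set_option linter.unusedSectionVars false

namespace Cfsg.Agent.H6.U5

open Module LinearMap Finset H5.U H6.S5
open scoped Classical

variable {F K : Type*} [Field F] [Fintype F] [StarRing F] [NStar F] [Field K] [Algebra F K] [Fintype K]
  [StarRing K] [StarModule F K] [NStar K] {h : HF F K} {Ψ : AddChar F ℂ} {n : ℕ}
  {b : Basis K ℂ (End ℂ (Fin n → ℂ))} {L : Subgroup (K ≃ₗ[F] K)} [Fintype L]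
  {ρ : Representation ℂ L (Fin n → ℂ)} {γ : K} {T : Subgroup (U1 K)} {z z' : U1 F}
  {w : WL h Ψ b ρ} {φ : L} {σ : K →ₐ[F] K} {k : (U1 F →* ℂˣ) → ℕ} (c : WT w T φ σ k)
include c

theorem WT.disj (h1 : γ ∈ Bl T z) (h2 : γ ∈ Bl T z') : z = z' := by
  obtain ⟨a, ha, a1, rfl⟩ := mem_Bl.1 h1
  obtain ⟨a', ha', a2, e⟩ := mem_Bl.1 h2
  have e' := cay_inj (c.nm ha' a2) (c.nm ha a1) e
  have := c.bot _ (div_mem ha' ha) ⟨z / z', by rw [map_div, div_eq_div_iff_mul_eq_mul, mul_comm, e', mul_comm]⟩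
  rw [eq_of_div_eq_one this] at e'
  exact (io_inj (mul_left_cancel e')).symm

theorem WT.fixed {p : ℕ} [Fact p.Prime] [CharP F p] (hp : ¬ p ∣ Nat.card (U1 F)) (t1 : 1 < Nat.card T) :
    ∃ z : U1 F, ∀ a : F, a + star a = 0 → ∀ γ ∈ Bl T z, γ + algebraMap F K a ∈ Bl T z := by
  let U := (AddMonoidHom.id F + starAddEquiv.toAddMonoidHom).ker
  choose π hπ using fun (a : Multiplicative U) => c.perm (c' := a.toAdd.1) one_ne_zero (star_one F)
    (a.toAdd.2.trans (by simp))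
  simp only [one_smul] at hπ
  choose g hg using fun z : U1 F => card_pos.1 (show 0 < (Bl T z).card by have := c.card_Bl (z := z); omega)
  let _ : MulAction (Multiplicative U) (U1 F) :=
    { smul := π
      one_smul := fun z => c.disj (hπ 1 z _ (hg z)) (by simpa using hg z)
      mul_smul := fun x y z => c.disj (z' := π x (π y z)) (hπ _ z _ (hg z)) (by
        simpa [add_assoc, add_comm (algebraMap F K x.toAdd.1)] using hπ x _ _ (hπ y z _ (hg z))) }
  obtain ⟨z, hz⟩ := IsPGroup.nonempty_fixed_point_of_prime_not_dvd_card (p := p) (G := Multiplicative U)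
    (fun a => ⟨1, Multiplicative.toAdd.injective (Subtype.ext (by simp))⟩) (U1 F) hp
  exact ⟨z, fun a ha γ hγ => by
    simpa [show π _ z = z from hz (.ofAdd ⟨a, ha⟩)] using hπ (.ofAdd ⟨a, ha⟩) z γ hγ⟩

theorem WT.false {q d : ℕ} (hq : Fintype.card F = q ^ 2) (hst : ∀ t : F, star t = t ^ q) (q3 : 3 ≤ q)
    (hK : finrank F K = 5) (hN : ∀ a ∈ T, Algebra.norm F (a.1 : K) = 1)
    (ht : d * Nat.card T * (q + 1) = q ^ 5 + 1) (hd : d = 1 ∧ q % 5 ≠ 4 ∨ d = 5 ∧ q % 5 = 4) : False := by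
  have hF : Nat.card (F0 F) = q :=
    Nat.pow_left_injective two_ne_zero (by simp only [← card_eq_sq, ← hq, Nat.card_eq_fintype_card (α := F)])
  have hZ : Nat.card (U1 F) = q + 1 := hF ▸ card_U1
  have nb : ∀ {z : U1 F} {γ}, γ ∈ Bl T z → Algebra.norm F γ = z.1 ^ 5 * Algebra.norm F (γ + 1) ∧
      γ + star γ = -1 ∧ γ ∉ (⊥ : Subalgebra F K) := fun {z γ} hγ => by
    obtain ⟨a, ha, a1, rfl⟩ := mem_Bl.1 hγ
    refine ⟨?_, cay_mem (c.nm ha a1)⟩
    nth_rw 1 [cay_eq (c.nm ha a1)]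
    rw [map_mul, Subgroup.coe_mul, Units.val_mul, map_mul, hN a ha, io_val, Algebra.norm_algebraMap, hK, one_mul]
  by_cases q4 : q = 4
  · have := cay4 hq hst hK (univ.biUnion (Bl T : U1 F → _))
      (fun γ hγ => (mem_biUnion.1 hγ).elim fun z e => (nb e.2).2) (fun γ hγ β b0 b1 c' hc => by
        obtain ⟨z, -, hz⟩ := mem_biUnion.1 hγ
        obtain ⟨z', hz'⟩ := c.perm b0 b1 hc z
        have : z' ^ 5 = 1 := by rw [← pow_card_eq_one' (x := z'), hZ, q4]
        rw [(nb (hz' γ hz)).1, ← Units.val_pow_eq_pow_val, ← Subgroup.coe_pow, this]; simp) q4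
    rw [card_biUnion fun z _ z' _ e => disjoint_left.2 fun γ h1 h2 => e (c.disj h1 h2),
      sum_congr rfl fun z _ => eq_tsub_of_add_eq (c.card_Bl (z := z)), sum_const, card_univ,
      ← Nat.card_eq_fintype_card, hZ, smul_eq_mul] at this
    subst q4
    obtain ⟨rfl, -⟩ := hd.resolve_left (by omega)
    omega
  obtain ⟨p, j, hp, _, e⟩ := exists_q_pow hq
  have := Fact.mk hp
  have p1 : p ∣ q := e ▸ dvd_pow_self p (by rintro rfl; simp at e; omega)
  have a3 : q ^ 5 = q ^ 3 * q ^ 2 := by ring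
  have a1 := Nat.pow_le_pow_left q3 3
  have t1 : 1 < Nat.card T := by
    by_contra! k
    have : d * Nat.card T ≤ 5 * 1 := Nat.mul_le_mul (by omega) k
    nlinarith
  obtain ⟨z, hz⟩ := c.fixed (p := p) (by rw [hZ, Nat.dvd_add_right p1]; exact hp.not_dvd_one) t1
  have cb := c.card_Bl (z := z)
  have H := fun γ hγ a ha => (nb (hz a ha γ hγ)).1
  rcases hd with ⟨rfl, -⟩ | ⟨rfl, h5⟩
  · have := cay2 hq hst hK _ (fun γ hγ => (nb hγ).2) H q3 q4
    obtain ⟨r, rfl⟩ : ∃ r, q = r + 3 := ⟨q - 3, by omega⟩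
    have a := Nat.mul_le_mul_right (r + 3 + 1) (Nat.add_le_add_right this 1)
    rw [cb, ← one_mul (Nat.card T), ht, show r + 3 - 1 = r + 2 from rfl] at a
    nlinarith [Nat.zero_le (r ^ 5), Nat.zero_le (r ^ 4), Nat.zero_le (r ^ 3), Nat.zero_le (r ^ 2)]
  · rw [cay1 hq hst hK _ H (by omega) fun e => by
      obtain rfl := (Nat.prime_dvd_prime_iff_eq hp Nat.prime_five).1 ((CharP.cast_eq_zero_iff F p 5).1 e)
      omega] at cb
    rw [card_empty] at cb; omega

end Cfsg.Agent.H6.U5
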