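import Cfsg.Agent.H6.U5.W7

/-! Arithmetic of the cyclic torus of `SU_5(q)`. -/

set_option autoImplicit false
set_option linter.unusedSectionVars false

namespace Cfsg.Agent.H6.U5

open Module LinearMap Finset H5.U H6.S5 Subgroup
open scoped Classical

/-- the orders -/
structure Nu (q d t : ℕ) : Prop where
  q3 : 3 ≤ q
  ht : d * t * (q + 1) = q ^ 5 + 1
  hd : d = 1 ∧ q % 5 ≠ 4 ∨ d = 5 ∧ q % 5 = 4
  cop : t.Coprime (q + 1)
  c5 : t.Coprime 5

theorem exists_nu {q : ℕ} (q3 : 3 ≤ q) : ∃ d t, Nu q d t := by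
  have k : ∀ {t u : ℕ}, t.Coprime 5 → ∀ d, d * t = (q + 1) * u + 5 → t.Coprime (q + 1) := fun {t u} c d e =>
    Nat.eq_one_of_dvd_coprimes c (Nat.gcd_dvd_left _ _) ((Nat.dvd_add_right
      ((Nat.gcd_dvd_right _ _).mul_right u)).1 (e ▸ (Nat.gcd_dvd_left _ _).mul_left d))
  by_cases e : q % 5 = 4
  · obtain ⟨m, rfl⟩ : ∃ m, q = 5 * m + 4 := ⟨q / 5, by omega⟩
    have c : (5 * ((m + 1) * (25 * m ^ 3 + 50 * m ^ 2 + 35 * m + 8)) + 1).Coprime 5 := by simp
    exact ⟨5, _, q3, by ring, .inr ⟨rfl, e⟩, k (u := 5 * (25 * m ^ 3 + 50 * m ^ 2 + 35 * m + 8)) c 5 (by ring), c⟩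
  · obtain ⟨s, rfl⟩ : ∃ s, q = s + 2 := ⟨q - 2, by omega⟩
    have c : ((s + 3) * (s ^ 3 + 4 * s ^ 2 + 7 * s + 2) + 5).Coprime 5 := by
      rw [Nat.coprime_comm, Nat.prime_five.coprime_iff_not_dvd, Nat.dvd_iff_mod_eq_zero]
      have : s % 5 < 5 := Nat.mod_lt _ (by decide)
      rw [← Nat.div_add_mod s 5] at e ⊢
      generalize s % 5 = r at *
      interval_cases r <;> ring_nf at e ⊢ <;> omega
    exact ⟨1, _, q3, by ring, .inl ⟨rfl, e⟩, k c 1 (one_mul _), c⟩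

theorem Nu.prime {q d t : ℕ} (nu : Nu q d t) : ∃ l, l.Prime ∧ 7 ≤ l ∧ l ∣ t := by
  have a := nu.ht
  have q3 := nu.q3
  obtain ⟨l, hl, e⟩ := Nat.exists_prime_and_dvd (n := t) (by
    rintro rfl
    have : q ^ 5 = q ^ 3 * q ^ 2 := by ring
    have := Nat.pow_le_pow_left q3 3
    have := nu.hd
    nlinarith [show d ≤ 5 by omega])
  refine ⟨l, hl, ?_, e⟩
  obtain ⟨s, rfl⟩ : ∃ s, q = s + 2 := ⟨q - 2, by omega⟩
  have e1 : l ∣ s ^ 4 + 7 * s ^ 3 + 19 * s ^ 2 + 23 * s + 11 :=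
    (e.mul_left d).trans (Nat.eq_of_mul_eq_mul_right (by omega) (a.trans (by ring))).dvd
  have e2 := hl.two_le
  have e3 : l ≠ 5 := by rintro rfl; exact Nat.prime_five.coprime_iff_not_dvd.1 nu.c5.symm e
  by_contra! lt
  rw [← Nat.div_add_mod s 6] at e1
  have : s % 6 < 6 := Nat.mod_lt _ (by decide)
  generalize s % 6 = r at *
  interval_cases l <;> first | contradiction | (interval_cases r <;> ring_nf at e1 <;> omega)

variable {F K : Type*} [Field F] [Fintype F] [StarRing F] [NStar F] [Field K] [Algebra F K] [Fintype K]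
  [StarRing K] [StarModule F K] [NStar K] {q d t : ℕ} {σ : K →ₐ[F] K} {s u : U1 K}

/-- action of the Galois group on the torus -/
def sg (σ : K →ₐ[F] K) : U1 K →* U1 K :=
  ((Units.map (σ : K →* K)).comp (U1 K).subtype).codRestrict _ fun s => by
    change σ s.1 * star (σ s.1) = 1
    rw [← show σ (star _) = star (σ _) from gal_star (AlgEquiv.ofBijective σ σ.bijective) _, ← map_mul,
      show (s.1 : K) * star (s.1 : K) = 1 from s.2, map_one]

variable (K t) in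
/-- the Hall subgroup of the torus -/
abbrev T1 : Subgroup (U1 K) := (powMonoidHom t).ker

variable (hK : finrank F K = 5) (hq : Fintype.card F = q ^ 2) (nu : Nu q d t)
include hq

theorem cardF : Nat.card (U1 F) = q + 1 := by
  rw [card_U1, Nat.pow_left_injective two_ne_zero (show Nat.card (F0 F) ^ 2 = q ^ 2 by
    simp only [← card_eq_sq, ← hq, Nat.card_eq_fintype_card (α := F)])]

include hK

theorem cardK : Nat.card (U1 K) = q ^ 5 + 1 := by
  rw [card_U1, card_F0_ext (F := F), hK, Nat.add_right_cancel ((card_U1 (K := F)).symm.trans (cardF hq))]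

theorem fix_mem (s1 : σ ≠ 1) (e : sg σ s = s) : s ∈ (io K (F := F)).range := mem_io.2 (by_contra fun k =>
  s1 (AlgHom.ext (top_of hK (S := σ.equalizer 1) k (congrArg (fun x : U1 K => (x.1 : K)) e))))

include nu

theorem card_T1 : Nat.card (T1 K t) = t := by
  rw [IsCyclic.card_powMonoidHom_ker, cardK hK hq, ← nu.ht, mul_comm d, mul_assoc, Nat.gcd_mul_right_left]

theorem norm_iff : Algebra.norm F (u.1 : K) = 1 ↔ u ^ (d * t) = 1 := by
  have e : ∑ i ∈ range 5, (q ^ 2) ^ i = d * t * ((q + 1) * (q ^ 3 + q) + 1) :=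
    Nat.eq_of_mul_eq_mul_right q.succ_pos (by
      rw [mul_right_comm, nu.ht]; simp [sum_range_succ]; ring)
  rw [← (algebraMap F K).injective.eq_iff, FiniteField.algebraMap_norm_eq_pow_sum, hK,
    Nat.card_eq_fintype_card, hq, e, map_one, ← Units.val_pow_eq_pow_val, Units.val_eq_one, ← Subgroup.coe_pow,
    OneMemClass.coe_eq_one, mul_add, ← mul_assoc, nu.ht, ← cardK hK hq, pow_add, pow_mul, pow_card_eq_one',
    one_pow, one_mul, mul_one]

omit hK in
theorem T1_bot (hs : s ∈ T1 K t) (e : s ∈ (io K (F := F)).range) : s = 1 := by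
  obtain ⟨z, rfl⟩ := e
  exact (pow_eq_one_iff_of_coprime nu.cop).1 ⟨hs, by rw [← map_pow, ← cardF hq, pow_card_eq_one', map_one]⟩

omit hK in
theorem pow_d {z : U1 F} (e : z ^ 5 = 1) : z ^ d = 1 := by
  rcases nu.hd with ⟨rfl, h⟩ | ⟨rfl, -⟩
  · rw [pow_one]
    exact (pow_eq_one_iff_of_coprime (Nat.prime_five.coprime_iff_not_dvd.2 (show ¬ 5 ∣ q + 1 by omega))).1
      ⟨e, by rw [← cardF hq, pow_card_eq_one']⟩
  · exact e

theorem dec_T1 (e : u ^ (d * t) = 1) : ∃ a ∈ T1 K t, ∃ z : U1 F, u = a * io K z := by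
  rcases nu.hd with ⟨rfl, -⟩ | ⟨rfl, h⟩
  · exact ⟨u, by simpa using e, 1, by simp⟩
  obtain ⟨j, -, hj⟩ := Nat.exists_mul_mod_eq_one_of_coprime nu.c5 (by decide)
  obtain ⟨z, hz⟩ := fix_mem hK hq (σ := FiniteField.frobeniusAlgHom F K) (s := u ^ (t * j)) (fun k => by
    have := FiniteField.orderOf_frobeniusAlgHom F K
    rw [k, orderOf_one] at this; omega) (by
      obtain ⟨m, rfl⟩ : ∃ m, q = 5 * m + 4 := ⟨q / 5, by omega⟩
      have : ∀ x : U1 K, sg (FiniteField.frobeniusAlgHom F K) x = x ^ Fintype.card F := fun x =>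
        Subtype.ext (Units.ext (by simp [sg]))
      rw [this, hq, ← pow_mul, show t * j * (5 * m + 4) ^ 2 = 5 * t * (j * (5 * m ^ 2 + 8 * m + 3)) + t * j by ring,
        pow_add, pow_mul, e, one_pow, one_mul])
  refine ⟨u / io K z, ?_, z, (div_mul_cancel _ _).symm⟩
  rw [MonoidHom.mem_ker, powMonoidHom_apply, hz, div_pow, div_eq_one, ← pow_mul, ← Nat.div_add_mod (t * j) 5, hj,
    add_mul, mul_right_comm, pow_add, pow_mul, e, one_pow, one_mul, one_mul]

theorem surj_T1 (s1 : σ ≠ 1) (hs : s ∈ T1 K t) : ∃ a ∈ T1 K t, sg σ a = s * a := by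
  have m : ∀ a ∈ T1 K t, sg σ a / a ∈ T1 K t := fun a ha => div_mem (by
    rw [MonoidHom.mem_ker, powMonoidHom_apply, ← map_pow, show a ^ t = 1 from ha, map_one]) ha
  obtain ⟨a, ha⟩ := Finite.surjective_of_injective (f := fun a : T1 K t => (⟨_, m a a.2⟩ : T1 K t))
    (fun a b e => Subtype.ext (eq_of_div_eq_one (T1_bot hq nu (div_mem a.2 b.2) (fix_mem hK hq s1 (by
      rw [map_div, div_eq_div_iff_div_eq_div]; exact Subtype.mk.inj e))))) ⟨s, hs⟩
  exact ⟨a, a.2, div_eq_iff_eq_mul.1 (Subtype.mk.inj ha)⟩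

end Cfsg.Agent.H6.U5
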