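import Cfsg.Agent.H6.U5.X2
import Cfsg.Agent.H7.U5E
import Cfsg.Agent.H7.U5Big

/-! The normaliser of the cyclic torus of order `(q^5+1)/(q+1)` is maximal in `SU_5(q)`, `q ≥ 3`. -/

set_option autoImplicit false
set_option linter.unusedSectionVars false

namespace Cfsg.Agent.H6.U5

open Module LinearMap Finset H5.U H6.S5 Subgroup H1
open scoped Classical

theorem irr_sum {G : Type*} [Group G] [Fintype G] {χ ψ : G → ℂ} (h : IsIrrCharacter G χ)
    (h' : IsIrrCharacter G ψ) : ∑ g, χ g * ψ g⁻¹ = if χ = ψ then (Nat.card G : ℂ) else 0 := by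
  have := classInner_irr h h'
  rw [classInner, inv_mul_eq_iff_eq_mul₀ (by exact_mod_cast Nat.card_pos.ne')] at this
  simp only [IsIrr.inv h', this, mul_ite, mul_one, mul_zero]

variable {F K : Type*} [Field F] [Fintype F] [StarRing F] [NStar F] [Field K] [Algebra F K] [Fintype K]
  [StarRing K] [StarModule F K] [NStar K] {q d t : ℕ} {h : HF F K} {L : Subgroup (K ≃ₗ[F] K)}
  {Ψ : AddChar F ℂ} {n : ℕ} {b : Basis K ℂ (End ℂ (Fin n → ℂ))} [Fintype L]
  {ρ : Representation ℂ L (Fin n → ℂ)}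

theorem WL.bound (w : WL h Ψ b ρ) (η : U1 F →* ℂˣ) (g : L) : Fintype.card (U1 F) * ‖w.ze η g‖ ≤
    ∑ z ∈ univ.filter (fun z : F => z * star z = 1), √(Nat.card {x : K // z • g.1 x = x}) := by
  rw [WL.ze, WD.p, tr_pr, norm_mul, norm_inv, Complex.norm_natCast, mul_inv_cancel_left₀ (by simp)]
  refine (norm_sum_le _ _).trans (le_of_eq (sum_bij (fun z _ => z.1.1) (fun z _ => mem_filter.2 ⟨mem_univ _, z.2⟩)
    (fun _ _ _ _ e => Subtype.ext (Units.ext e)) (fun z hz => ⟨⟨.mk0 z (ne_zero_of_norm_one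
      (mem_filter.1 hz).2), (mem_filter.1 hz).2⟩, mem_univ _, rfl⟩) fun z _ => ?_))
  have a := char_inv (MonoidHom.noncommCoprod ρ (w.R.comp (io K (F := F))) fun g z =>
    Ro_comm' (w.le g.2) (w.int' g) _) (g, z)
  have e := w.fix g z
  rw [show trace ℂ _ (ρ g⁻¹ * w.R (io K z⁻¹)) = _ from a, show Representation.character _ _ = trace ℂ _ (ρ g * w.R (io K z))
    from rfl, Complex.mul_conj, Complex.normSq_eq_norm_sq] at e
  rw [norm_mul, Complex.norm_eq_one_of_pow_eq_one (n := Nat.card (U1 F)) (by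
    rw [← Units.val_pow_eq_pow_val, ← map_pow, pow_card_eq_one']; simp) Nat.card_pos.ne', one_mul,
    eq_comm]
  norm_cast at e
  exact (Real.sqrt_eq_iff_mul_self_eq (Nat.cast_nonneg _) (norm_nonneg _)).2 ((pow_two _).symm.trans e).symm

variable (c : ML h q d t L)
include c

theorem ML.shape (w : WL h Ψ b ρ) (h1 : ∀ s (hs : s ∈ T1 K t), ρ ⟨_, c.mem s hs⟩ = w.R s)
    (h2 : ∀ (z : U1 F) hz, ρ ⟨m1 F (io K z), hz⟩ = w.R (io K z)) (η : U1 F →* ℂˣ) : ∃ k, w.Sh η k := by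
  have hv : d * t * Nat.card (U1 F) = n + 1 := by
    rw [cardF c.hq, c.ht, ← cardK c.hK c.hq, card_U1, w.card]
  have pp : IsPrimePow q := by
    obtain ⟨p, j, hp, -, e⟩ := exists_q_pow c.hq
    have := c.q3
    exact ⟨p, j, hp.prime, Nat.pos_of_ne_zero (by rintro rfl; simp at e; omega), e.symm⟩
  let zb : BB L →* U1 F := (MonoidHom.ofInjective (f := (m1 F).comp (io K (F := F)))
    (m1_inj.comp io_inj)).symm.toMonoidHom.comp ((L.subtype.comp (BB L).subtype).codRestrict _ fun x => x.2)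
  have hz : ∀ x : BB L, m1 F (io K (zb x)) = x.1.1 := fun x =>
    MonoidHom.apply_ofInjective_symm (f := (m1 F).comp (io K (F := F))) (m1_inj.comp io_inj) ⟨_, x.2⟩
  have ch := fun η : U1 F →* ℂˣ => CH (T := TT' t L) (B := BB L) (by
      rintro ⟨_, _⟩ ⟨a, -, rfl⟩ ⟨_, _⟩ ⟨a', -, rfl⟩
      exact Subtype.ext ((map_mul _ a a').symm.trans ((congrArg _ (mul_comm _ _)).trans (map_mul _ _ _))))
    BB_le c.cop' c.hC c.hN c.cardT c.hK' pp c.q3 c.ht (c.hd.imp_left And.left) c.hL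
    (cut (w.idem (η := η)) ρ w.cm) (η.comp zb) (fun x => by
      have e : ρ x * w.p η = (η (zb x) : ℂ) • (1 * w.p η) := by
        rw [show x.1 = ⟨_, hz x ▸ x.1.2⟩ from Subtype.ext (hz x).symm, h2, one_mul]
        exact mul_pr (w.R.comp (io K (F := F))) _
      change res _ _ = _
      rw [← res_mul_p w.idem, e, map_smul, res_mul_p w.idem, res_one w.idem]; rfl)
    (δ := if η = 1 then 1 else 0) (by split_ifs with e <;> simp [e]) (by
      rintro ⟨_, _⟩ ⟨a, ha, rfl⟩ a1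
      rw [cut_char, h1 a ha, w.tr_p fun e => a1 (Subtype.ext (by simp [T1_bot c.hq c.toNu ha e]))]
      simp) (by rw [cut_char, map_one, one_mul, w.rk hv]; simp)
  have ze : ∀ η, (cut (w.idem (η := η)) ρ w.cm).character = w.ze η := fun η => funext (cut_char _ _ _)
  simp only [ze] at ch
  have t2 := fun (e : d = 5) => T2 (h := h) (t := t) c.hK c.hq c.hst ((c.hd.resolve_left (by omega)).2) w.le (by
    have := deg_dvd ((ch 1).resolve_right (by simp)) (d := d * t - 1) (by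
      rw [WL.ze, map_one, one_mul, w.rk hv]; simp)
    rw [show (d * t - 1 : ℤ) = (q ^ 2 + 1) * (q * (q - 1)) from mul_right_cancel₀ (b := (q : ℤ) + 1) (by omega) (by
      linear_combination (by exact_mod_cast c.ht : (d * t * (q + 1) : ℤ) = q ^ 5 + 1))] at this
    exact_mod_cast (Dvd.intro _ rfl).trans this) (e ▸ c.ht)
  rcases ch η with e | ⟨e0, ψ, e1, e2, e⟩ | ⟨-, e0, ⟨ψ, e1, e | ⟨e2, e⟩⟩ | ⟨e1, ψ, ψ', e2, e3, e4, e5, e⟩⟩
  · exact ⟨0, by simp [irr_sum e e], .inl rfl⟩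
  · have a1 := irr_sum e1 e1
    have a2 := irr_sum e1 (isIrr_one L)
    have a3 := irr_sum (isIrr_one L) e1
    rw [if_neg (show ¬ ψ = fun _ => 1 from e2)] at a2
    rw [if_neg (show ¬ (fun _ => 1) = ψ from e2.symm)] at a3
    simp only [if_true, mul_one, one_mul] at a1 a2 a3
    exact ⟨1, by simp [e, add_mul, mul_add, sum_add_distrib, a1, a2, a3], .inr ⟨rfl, by simpa using e0,
      by simp [e, sum_add_distrib, a2]⟩⟩
  · exact (((t2 e0).1 ψ e1).1 e).elim
  · exact (((t2 e0).1 ψ e1).2 e2 e).elim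
  · refine ((t2 e0).2 e1 ψ ψ' e2 e3 e4 e5 fun g => ?_).elim
    have := w.bound η g
    rw [← Nat.card_eq_fintype_card, cardF c.hq, e1, e] at this
    exact_mod_cast this

omit [Fintype L] in
theorem ML.tr {u u' : K} (h1 : h u u = 1) (h2 : h u' u' = 1) :
    ∃ g ∈ L, ∃ z : F, z * star z = 1 ∧ g u = z • u' := by
  by_contra! nt
  have := Fintype.ofFinite L
  obtain ⟨Ψ, hΨ⟩ := exists_Ψ (F := F)
  obtain ⟨n, b, hb⟩ := (coc h hΨ).exists_w
  have w0 : WD h Ψ b := ⟨c.adj, hΨ, coc h hΨ, hb.1, hb.2.1, hb.2.2⟩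
  obtain ⟨ρ0, r1, r2⟩ := w0.exists_rho (v := d * t) (by rw [cardF c.hq, c.ht, ← cardK c.hK c.hq, card_U1, w0.card])
  let ρ : Representation ℂ L _ := ρ0.comp (inclusion (c.le.trans HF.SU_le_GU))
  have w : WL h Ψ b ρ := ⟨w0, c.le.trans HF.SU_le_GU, fun g => r1 _⟩
  obtain ⟨φ, hφ, σ, s1, e⟩ := c.phi
  have m : ∀ a ∈ T1 K t, sg σ a ∈ T1 K t := fun a ha => by
    rw [MonoidHom.mem_ker, powMonoidHom_apply, ← map_pow, show a ^ t = 1 from ha, map_one]
  have k1 : ∀ s (hs : s ∈ T1 K t), ρ ⟨_, c.mem s hs⟩ = w.R s := fun s hs => by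
    obtain ⟨a, ha, e'⟩ := surj_T1 c.hK c.hq c.toNu s1 hs
    obtain ⟨k, hk⟩ := w.sc (A := w.R.toHomUnits a) (w.int a.2) (w.int' ⟨_, c.mem a ha⟩)
    have a1 : ρ ⟨φ, hφ⟩ * ρ ⟨_, c.mem a ha⟩ = ρ ⟨_, c.mem s hs⟩ * ρ ⟨_, c.mem a ha⟩ * ρ ⟨φ, hφ⟩ := by
      simp only [← map_mul]
      exact congrArg ρ (Subtype.ext ((sm_conj e a).trans (by rw [e', map_mul]; rfl)))
    have a2 : ρ ⟨φ, hφ⟩ * w.R a = w.R (sg σ a) * _ := Ro_comm (w.le hφ) (w.int' ⟨φ, hφ⟩) e _
    rw [show ρ _ = k • w.R a from hk, mul_smul_comm, a2, e', map_mul, ← smul_mul_assoc, ← mul_smul_comm,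
      ← show ρ _ = k • w.R a from hk] at a1
    exact ((Group.isUnit _).map ρ).mul_right_cancel (((Group.isUnit _).map ρ).mul_right_cancel a1).symm
  choose k hk using c.shape w k1 fun z hz => r2 z (by rw [pow_mul, c.five hz, one_pow])
  obtain ⟨r, r3, r4⟩ := w.orb (by rw [c.hK]; omega) h1 h2 nt
  have := NeZero.mk (Monoid.exponent_ne_zero_of_finite (G := U1 F))
  have cd := (CommGroup.card_monoidHom_of_hasEnoughRootsOfUnity (U1 F) ℂ).trans (cardF c.hq)
  rw [sum_congr rfl fun η _ => (hk η).1, ← sum_mul, mul_left_inj' (by simp), sum_add_distrib, sum_const,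
    card_univ, ← Nat.card_eq_fintype_card, cd, nsmul_one] at r4
  rw [Nat.add_right_cancel ((card_U1 (K := F)).symm.trans (cardF c.hq)),
    ← show ∑ η, k η + (q + 1) = r by exact_mod_cast r4] at r3
  refine WT.false (w := w) (T := T1 K t) (φ := ⟨φ, hφ⟩) (k := k) (d := d) ⟨e, fun s hs => ⟨_, k1 s hs⟩,
    fun s => T1_bot c.hq c.toNu, fun s s' e' => ?_, hk, fun z hz => by_contra fun z1 => ?_⟩ c.hq c.hst c.q3 c.hK
    (fun a ha => (norm_iff c.hK c.hq c.toNu).2 (by rw [mul_comm, pow_mul, show a ^ t = 1 from ha, one_pow]))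
    (by rw [card_T1 c.hK c.hq c.toNu, c.ht]) c.hd
  · obtain rfl : sg σ s = s' := Subtype.ext (Units.ext e')
    have n1 : Algebra.norm F (s.1 : K) * Algebra.norm F ((sg σ s / s).1 : K) = Algebra.norm F (s.1 : K) := by
      rw [← map_mul, ← Units.val_mul, ← Subgroup.coe_mul, mul_div_cancel]; exact e.norm _
    obtain ⟨a, ha, z, e2⟩ := dec_T1 c.hK c.hq c.toNu ((norm_iff c.hK c.hq c.toNu).1
      ((mul_eq_left₀ (by simp [Algebra.norm_eq_zero_iff])).1 n1))
    refine ⟨a, ha, z, by rw [mul_assoc, ← e2, mul_div_cancel], ?_⟩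
    rintro rfl
    obtain ⟨a', ha', e3⟩ := surj_T1 c.hK c.hq c.toNu s1 ha
    obtain ⟨z, hz⟩ := fix_mem c.hK c.hq s1 (s := s / a') (by
      rw [map_div, e3, div_eq_iff_eq_mul.1 e2, map_one, mul_one, mul_div_mul_left_eq_div])
    exact ⟨a', ha', z, by rw [hz, mul_div_cancel]⟩
  · obtain ⟨η, hη⟩ := CommGroup.exists_apply_ne_one_of_hasEnoughRootsOfUnity (U1 F) ℂ z1
    let A := (MonoidHom.eval z : (U1 F →* ℂˣ) →* ℂˣ).ker
    have a1 := A.card_mul_index
    have a2 : 2 ≤ A.index := one_lt_index_of_ne_top fun e => hη (e.ge (mem_top η))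
    have a3 : ∑ η, k η ≤ ∑ η ∈ (univ.filter (· ∈ A)).erase 1, 1 := by
      rw [← sum_subset (subset_univ ((univ.filter (· ∈ A)).erase 1)) fun η _ e =>
        (hk η).2.resolve_right fun e' => e (mem_erase.2 ⟨e'.2.1, mem_filter.2 ⟨mem_univ _, hz η e'.1⟩⟩)]
      exact sum_le_sum fun η _ => by have := (hk η).2; omega
    rw [sum_const, smul_eq_mul, mul_one, card_erase_of_mem (by simp), ← Fintype.card_subtype,
      ← Nat.card_eq_fintype_card] at a3
    have := c.q3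
    have := Nat.mul_le_mul_left (Nat.card A) a2
    have : 0 < Nat.card A := Nat.card_pos
    omega

omit c [Fintype L]

theorem su_core (adj : ∀ c u v : K, h (c * u) v = h u (star c * v)) (hK : finrank F K = 5)
    (hq : Fintype.card F = q ^ 2) (hst : ∀ t : F, star t = t ^ q) (q3 : 3 ≤ q) {M : Subgroup (K ≃ₗ[F] K)}
    (hM : M ≤ h.SU) (hH : ∀ g ∈ h.SU, GamL K g → g ∈ M) (ne : ∃ g ∈ M, ¬ GamL K g) : h.SU ≤ M := by
  obtain ⟨d, t, nu⟩ := exists_nu q3
  obtain ⟨L, ⟨l1, l2, l3⟩, hL⟩ := exists_minimal_of_wellFoundedLT (fun L : Subgroup (K ≃ₗ[F] K) =>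
    L ≤ M ∧ (∀ s ∈ T1 K t, m1 F s ∈ L) ∧ ∃ g ∈ L, ¬ GamL K g) ⟨M, le_rfl, fun s hs => hH _ ⟨fun x y => by
      change h (s.1 * _) (s.1 * _) = _
      rw [adj, ← mul_assoc, mul_comm (star _), show (s.1 : K) * star (s.1 : K) = 1 from s.2, one_mul],
      mem_SLV'.2 ((det_mu _).trans ((norm_iff hK hq nu).2 (by
        rw [mul_comm, pow_mul, show s ^ t = 1 from hs, one_pow])))⟩
      (Sm.gamL (σ := 1) fun a v => mul_left_comm _ _ _), ne⟩
  have c : ML h q d t L := ⟨nu, adj, hK, hq, hst, l1.trans hM, l2, l3, fun L' a b c => hL ⟨a.trans l1, b, c⟩ a⟩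
  obtain ⟨e, e0, he, hX⟩ := trX hK hq hst hM fun u w h1 h2 => (c.tr h1 h2).imp fun g e => ⟨l1 e.1, e.2⟩
  obtain ⟨a, ha, a1⟩ := c.ex
  refine big5 hK hq q3 hM (fun W hW => or_iff_not_imp_left.2 fun k => eq_top_iff.2 fun y _ => ?_) e0 he hX
  obtain ⟨x, hx, x0⟩ := (Submodule.ne_bot_iff W).1 k
  simpa [x0] using top_of hK (S :=
    { carrier := {c | ∀ x ∈ W, c * x ∈ W}
      mul_mem' := fun {a b} ha hb x hx => by rw [mul_assoc]; exact ha _ (hb x hx)
      add_mem' := fun {a b} ha hb x hx => by rw [add_mul]; exact add_mem (ha x hx) (hb x hx)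
      algebraMap_mem' := fun μ x hx => by rw [← Algebra.smul_def]; exact W.smul_mem _ hx }) a1
    (hW _ (l1 (l2 a ha))) (y / x) x hx

omit [StarRing K] [StarModule F K] [NStar K] in
theorem su_core' (adj : ∀ c : K, ∃ c' : K, ∀ u v : K, h (c * u) v = h u (c' * v)) (hK : finrank F K = 5)
    (hq : Fintype.card F = q ^ 2) (hst : ∀ t : F, star t = t ^ q) (q3 : 3 ≤ q) (M : Subgroup (K ≃ₗ[F] K))
    (hM : M ≤ h.SU) (hH : ∀ g ∈ h.SU, GamL K g → g ∈ M) (ne : ∃ g ∈ M, ¬ GamL K g) : h.SU ≤ M := by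
  choose st hs using adj
  have ext : ∀ a b : K, (∀ u, h u (a * 1) = h u (b * 1)) → a = b := fun a b H => by
    simpa using h.ext_right H
  letI : StarRing K :=
    { star := st
      star_involutive := fun c => ext _ _ fun u => by rw [← hs, ← h.conj, ← hs, h.conj]
      star_mul := fun a b => ext _ _ fun u => by
        change h u (st (a * b) * 1) = h u ((st b * st a) * 1)
        rw [← hs, mul_assoc, hs, hs, mul_assoc]
      star_add := fun a b => ext _ _ fun u => by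
        change h u (st (a + b) * 1) = h u ((st a + st b) * 1)
        rw [← hs, add_mul, add_mul, h.add_left, h.add_right, hs, hs] }
  have hs' : ∀ (c : K) u v, h (c * u) v = h u (star c * v) := hs
  haveI : StarModule F K := ⟨fun t a => ext _ _ fun u => by
    rw [← hs', smul_mul_assoc, smul_mul_assoc, h.smul_left, h.smul_right, star_star, hs']⟩
  haveI : NStar K := ⟨by
    obtain ⟨ω, hω⟩ := NStar.exists_ne (F := F)
    exact ⟨algebraMap F K ω, fun h => hω ((algebraMap F K).injective (by rwa [algebraMap_star_comm]))⟩⟩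
  exact su_core hs' hK hq hst q3 hM hH ne

open Matrix in
theorem su_singer5 {F : Type*} [Field F] [Fintype F] (q : ℕ) (hF : Fintype.card F = q ^ 2) (q3 : 3 ≤ q)
    (K : Subalgebra F (Matrix (Fin 5) (Fin 5) F)) (hK : Geo.IsFieldSubalgebra 5 K)
    (hA : Geo.IsAdjointClosedFor (hermForm 5 F q) K) :
    Geo.IsMaximalIn (GU 5 F q ⊓ Geo.specialLinear (Fin 5) F)
      (Geo.subalgebraNormalizer K ⊓ (GU 5 F q ⊓ Geo.specialLinear (Fin 5) F)) := by
  letI := powStar hF
  haveI := powStar_nstar hF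
  have hnt : Nontrivial K := Module.nontrivial_of_finrank_pos (R := F) (by rw [hK.finrank_eq]; omega)
  have hf : IsField K :=
    { exists_pair_ne := exists_pair_ne K
      mul_comm := fun x y => Subtype.ext (hK.comm _ x.2 _ y.2)
      mul_inv_cancel := fun {x} hx => by
        obtain ⟨y, hy, hxy⟩ := hK.inv _ x.2 fun h => hx (Subtype.ext h)
        exact ⟨⟨y, hy⟩, Subtype.ext hxy⟩ }
  let _ : Field K := hf.toField
  have := Fintype.ofFinite K
  have hr : finrank F K = 5 := hK.finrank_eq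
  let f : K →ₗ[F] (Fin 5 → F) := (Matrix.mulVecBilin F F).flip (Pi.single 0 1) ∘ₗ K.val.toLinearMap
  have inj : Function.Injective f := (injective_iff_map_eq_zero f).2 fun c hc => by_contra fun c0 => by
    obtain ⟨y, -, hy⟩ := hK.inv _ c.2 fun h => c0 (Subtype.ext h)
    have := congrArg (y *ᵥ ·) (show c.1 *ᵥ Pi.single 0 1 = 0 from hc)
    simp only [mulVec_mulVec, mul_eq_one_comm.1 hy, one_mulVec, mulVec_zero] at this
    simpa using congrFun this 0
  let e := (f.linearEquivOfInjective inj (by simp [hr])).symm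
  have he : ∀ c v : K, e.symm (c * v) = c.1 *ᵥ e.symm v := fun c v => (mulVec_mulVec _ c.1 v.1).symm
  have hsemi : ∀ g : GL (Fin 5) F, Semi K (glEquiv e g) ↔ ∀ k ∈ K,
      (g : Matrix _ _ F) * k * ((g⁻¹ : GL _ F) : Matrix _ _ F) ∈ K := fun g => by
    refine ⟨fun h k hk => ?_, fun h c => ⟨⟨_, h c c.2⟩, fun v => e.symm.injective ?_⟩⟩
    · obtain ⟨c', hc'⟩ := h ⟨k, hk⟩
      have : (g : Matrix _ _ F) * k = c'.1 * g.1 := Matrix.toLin'.injective (LinearMap.ext fun v => by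
        simpa [glEquiv_apply, he] using congrArg e.symm (hc' (e v)))
      rw [this, mul_assoc, Units.mul_inv, mul_one]
      exact c'.2
    · simp [glEquiv_apply, he, mul_assoc]
  let h0 := stdHF (Fin 5) F
  let h : HF F K :=
    { toFun := fun x y => h0 (e.symm x) (e.symm y)
      add_left' := by simp
      smul_left' := by simp
      conj' := by simp
      nd' := fun v hv => e.symm.map_eq_zero_iff.1 (h0.nd fun x => by simpa using hv (e x)) }
  refine H5.U.isMaximalIn_of_core e h _ _ (fun g => (mem_GU_iff hF 5 g).trans ⟨fun k x y => ?_, fun k x y => ?_⟩)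
    (GamL K) (fun g _ => ?_) (ext_proper_u _ (by omega) (by omega))
    (su_core' (fun c => ?_) hr hF (fun _ => rfl) q3)
  · simpa [h, glEquiv_apply] using k (e.symm x) (e.symm y)
  · simpa [h, glEquiv_apply] using k (e x) (e y)
  · rw [GamL, ← map_inv, hsemi, hsemi]
    refine ⟨fun h => ⟨fun k hk => (h k).1 hk, fun k hk => (inv_mem h k).1 hk⟩, fun ⟨h1, h2⟩ k =>
      ⟨h1 k, fun hk => by simpa [mul_assoc] using h2 _ hk⟩⟩
  · obtain ⟨c', hc', H⟩ := hA c c.2
    exact ⟨⟨c', hc'⟩, fun u v => by simp only [h, he]; exact H _ _⟩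

end Cfsg.Agent.H6.U5
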